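import Mathlib

/-!
# Arithmetic used for Brauer's theorem on Sylow 2-subgroups of type `(2^m, 2^m)`
-/

set_option autoImplicit false

namespace Cfsg.Agent.Lib.Helper2

/-- The Diophantine step. -/
theorem brauer_dioph (x₁ x₂ : ℤ) (h₁ : (16 : ℤ) ∣ x₁ - 1) (h₂ : (16 : ℤ) ∣ x₂ - 1)
    (h : (x₁ * x₂ + x₁ + x₂) * (1 + x₁ + x₂) = 9 * (x₁ * x₂)) : x₁ = 1 ∧ x₂ = 1 := by
  obtain ⟨u, hu⟩ := h₁
  obtain ⟨v, hv⟩ := h₂
  have e₁ : x₁ = 1 + 16 * u := by linarith
  have e₂ : x₂ = 1 + 16 * v := by linarith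
  set w := u + v with hw
  have hs : x₁ + x₂ = 2 + 16 * w := by rw [e₁, e₂, hw]; ring
  set q := x₁ * x₂ with hq
  have h1 : q * (6 - 16 * w) = (2 + 16 * w) * (3 + 16 * w) := by
    have : (q + (x₁ + x₂)) * (1 + (x₁ + x₂)) = 9 * q := by linarith
    rw [hs] at this
    linarith
  have hdvd : (6 - 16 * w) ∣ 72 := by
    have h2 : (72 : ℤ) = (2 + 16 * w) * (3 + 16 * w) + (6 - 16 * w) * (11 + 16 * w) := by ring
    rw [h2, ← h1]
    exact Dvd.dvd.add (Dvd.intro_left _ rfl) (Dvd.intro _ rfl)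
  have hle := Int.le_of_dvd (by norm_num) hdvd
  have hge : -(72 : ℤ) ≤ 6 - 16 * w := by
    have := Int.le_of_dvd (by norm_num) ((neg_dvd).2 hdvd)
    linarith
  have hw0 : w = 0 := by
    have l1 : -4 ≤ w := by omega
    have l2 : w ≤ 4 := by omega
    interval_cases w <;> first | rfl | (exfalso; revert hdvd; decide)
  rw [hw0] at h1 hs
  have hq1 : q = 1 := by linarith
  have hsq : (x₁ - x₂) ^ 2 = 0 := by
    have : (x₁ - x₂) ^ 2 = (x₁ + x₂) ^ 2 - 4 * q := by rw [hq]; ring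
    rw [this, hs, hq1]; norm_num
  have : x₁ - x₂ = 0 := by exact pow_eq_zero_iff (two_ne_zero) |>.1 hsq
  constructor <;> linarith

/-- integers whose squares are positive and sum to the number `3` over a finite set. -/
theorem sq_sum_three {ι : Type*} (s : Finset ι) (a : ι → ℤ) (h0 : ∀ i ∈ s, a i ≠ 0)
    (h : ∑ i ∈ s, a i ^ 2 = 3) : s.card = 3 ∧ ∀ i ∈ s, a i = 1 ∨ a i = -1 := by
  have h1 : ∀ i ∈ s, 1 ≤ a i ^ 2 := by
    intro i hi
    have := h0 i hi
    have h2 : 0 < a i ^ 2 := by positivity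
    omega
  have h2 : ∀ i ∈ s, a i ^ 2 = 1 := by
    intro i hi
    by_contra hne
    have h3 : 4 ≤ a i ^ 2 := by
      have h4 : a i ≠ 1 ∧ a i ≠ -1 := by
        constructor <;> (intro h5; apply hne; rw [h5]; norm_num)
      have h5 := h0 i hi
      rcases lt_trichotomy (a i) 0 with h6 | h6 | h6
      · have : a i ≤ -2 := by omega
        nlinarith
      · exact absurd h6 h5
      · have : 2 ≤ a i := by omega
        nlinarith
    have h4 : a i ^ 2 ≤ ∑ j ∈ s, a j ^ 2 :=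
      Finset.single_le_sum (f := fun j => a j ^ 2) (fun j _ => sq_nonneg _) hi
    omega
  constructor
  · have : ∑ i ∈ s, a i ^ 2 = ∑ i ∈ s, (1 : ℤ) := Finset.sum_congr rfl h2
    rw [h, Finset.sum_const, nsmul_eq_mul, mul_one] at this
    exact_mod_cast this.symm
  · intro i hi
    have := h2 i hi
    have h3 : (a i - 1) * (a i + 1) = 0 := by linarith [this, (by ring : (a i - 1) * (a i + 1) = a i ^ 2 - 1)]
    rcases mul_eq_zero.1 h3 with h | h
    · left; linarith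
    · right; linarith

end Cfsg.Agent.Lib.Helper2
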