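import Cfsg.Agent.Lib.Helper83.BLDual

/-!
# Orbit sums of linear characters of an abelian subgroup under its normalizer
-/

set_option autoImplicit false
set_option linter.unusedSectionVars false

namespace Cfsg.Agent.Lib.Helper2

open Cfsg.Agent.Lib.Helper83 Cfsg.Agent.Lib.Helper46

theorem sum_triple {ι : Type*} [Fintype ι] (f g h : ι → ℂ) :
    (∑ a, f a) * (∑ b, g b) * (∑ c, h c) = ∑ a, ∑ b, ∑ c, f a * g b * h c := by
  rw [Finset.sum_mul_sum, Finset.sum_mul]
  apply Finset.sum_congr rfl; intro a _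
  rw [Finset.sum_mul]
  apply Finset.sum_congr rfl; intro b _
  rw [Finset.mul_sum]

section

variable {G : Type*} [Group G] [Finite G] (P : Subgroup G)

open Classical in
/-- the orbit sum of `φ` under the normalizer, evaluated at `y` -/
noncomputable def orbSum [Fintype (P →* ℂˣ)] (φ : P →* ℂˣ) (y : P) : ℂ :=
  ∑ ψ : P →* ℂˣ, if dualRel P φ ψ then ((ψ y : ℂˣ) : ℂ) else 0

/-- the sum over the whole normalizer -/
noncomputable def norSum [Fintype (Subgroup.normalizer (P : Set G))] (φ : P →* ℂˣ) (y : P) : ℂ :=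
  ∑ n : Subgroup.normalizer (P : Set G), ((dsmul P n φ y : ℂˣ) : ℂ)

theorem norSum_eq (hc : ∀ a b : P, a * b = b * a) (hfree : FreeNC P) [Fintype (P →* ℂˣ)]
    [Fintype (Subgroup.normalizer (P : Set G))] {φ : P →* ℂˣ} (h1 : φ ≠ 1) (y : P) :
    norSum P φ y = (Nat.card (Subgroup.centralizer (P : Set G)) : ℂ) * orbSum P φ y := by
  classical
  rw [norSum, orbSum, Finset.mul_sum,
    ← Finset.sum_fiberwise Finset.univ (fun n : Subgroup.normalizer (P : Set G) => dsmul P n φ)]
  apply Finset.sum_congr rfl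
  intro ψ _
  have h2 : ∀ n ∈ Finset.univ.filter
      (fun n : Subgroup.normalizer (P : Set G) => dsmul P n φ = ψ),
      ((dsmul P n φ y : ℂˣ) : ℂ) = ((ψ y : ℂˣ) : ℂ) := by
    intro n hn
    rw [(Finset.mem_filter.1 hn).2]
  rw [Finset.sum_congr rfl h2, Finset.sum_const, nsmul_eq_mul]
  by_cases hr : dualRel P φ ψ
  · rw [if_pos hr, ← card_dsmul_fiber P hc hfree h1 hr, Nat.card_eq_fintype_card,
      Fintype.card_subtype]
  · rw [if_neg hr, mul_zero]
    have : Finset.univ.filter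
      (fun n : Subgroup.normalizer (P : Set G) => dsmul P n φ = ψ) = ∅ := by
      apply Finset.filter_eq_empty_iff.2
      intro n _ hn
      exact hr ((dualRel_iff P φ ψ).2 ⟨n, hn⟩)
    rw [this]; simp

theorem norSum_one [Fintype (Subgroup.normalizer (P : Set G))] (y : P) :
    norSum P 1 y = (Nat.card (Subgroup.normalizer (P : Set G)) : ℂ) := by
  rw [norSum]
  simp [dsmul_one, Nat.card_eq_fintype_card]

/-- the cubic sum over the whole dual group vanishes -/
theorem sum_norSum_cube (hc : ∀ a b : P, a * b = b * a) [Fintype (P →* ℂˣ)]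
    [Fintype (Subgroup.normalizer (P : Set G))] (t z : P) (ht : t * t = 1) (hz : z * z ≠ 1) :
    ∑ φ : P →* ℂˣ, norSum P φ t * norSum P φ t * norSum P φ z = 0 := by
  classical
  have h1 : ∀ φ : P →* ℂˣ, norSum P φ t * norSum P φ t * norSum P φ z
      = ∑ a : Subgroup.normalizer (P : Set G), ∑ b : Subgroup.normalizer (P : Set G),
        ∑ c : Subgroup.normalizer (P : Set G),
          ((φ ((a⁻¹ • t) * (b⁻¹ • t) * (c⁻¹ • z)) : ℂˣ) : ℂ) := by
    intro φ
    rw [norSum, norSum, sum_triple]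
    apply Finset.sum_congr rfl; intro a _
    apply Finset.sum_congr rfl; intro b _
    apply Finset.sum_congr rfl; intro c _
    rw [dsmul_apply, dsmul_apply, dsmul_apply, map_mul, map_mul, Units.val_mul, Units.val_mul]
  rw [Finset.sum_congr rfl (fun φ _ => h1 φ), Finset.sum_comm]
  apply Finset.sum_eq_zero; intro a _
  rw [Finset.sum_comm]
  apply Finset.sum_eq_zero; intro b _
  rw [Finset.sum_comm]
  apply Finset.sum_eq_zero; intro c _
  rw [sum_hom_dual hc, if_neg]
  intro h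
  apply hz
  -- `c⁻¹ • z` is the inverse of an element of square one
  set u := (a⁻¹ • t) * (b⁻¹ • t) with hu
  have hu2 : u * u = 1 := by
    have e1 : (a⁻¹ • t) * (a⁻¹ • t) = 1 := by rw [← smul_mul', ht, smul_one]
    have e2 : (b⁻¹ • t) * (b⁻¹ • t) = 1 := by rw [← smul_mul', ht, smul_one]
    calc u * u = (a⁻¹ • t) * ((b⁻¹ • t) * (a⁻¹ • t)) * (b⁻¹ • t) := by rw [hu]; group
      _ = (a⁻¹ • t) * ((a⁻¹ • t) * (b⁻¹ • t)) * (b⁻¹ • t) := by rw [hc (b⁻¹ • t)]
      _ = ((a⁻¹ • t) * (a⁻¹ • t)) * ((b⁻¹ • t) * (b⁻¹ • t)) := by group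
      _ = 1 := by rw [e1, e2, one_mul]
  have hcz : c⁻¹ • z = u⁻¹ := eq_inv_of_mul_eq_one_right h
  have h3 : c⁻¹ • (z * z) = 1 := by
    rw [smul_mul', hcz, ← mul_inv_rev, hu2, inv_one]
  have h4 : c⁻¹ • (z * z) = c⁻¹ • (1 : P) := by rw [h3, smul_one]
  exact MulAction.injective c⁻¹ h4

open Classical in
/-- the cubic orbit-sum identity -/
theorem sum_orbSum_cube (hc : ∀ a b : P, a * b = b * a) (hfree : FreeNC P) [Fintype (P →* ℂˣ)]
    (hidx : (Subgroup.centralizer (P : Set G)).relIndex (Subgroup.normalizer (P : Set G)) = 3)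
    (t z : P) (ht : t * t = 1) (hz : z * z ≠ 1) :
    ∑ φ : P →* ℂˣ, (if φ ≠ 1 then orbSum P φ t * orbSum P φ t * orbSum P φ z else 0) = -27 := by
  have : Fintype (Subgroup.normalizer (P : Set G)) := Fintype.ofFinite _
  have h0 := sum_norSum_cube P hc t z ht hz
  set c : ℂ := (Nat.card (Subgroup.centralizer (P : Set G)) : ℂ) with hcdef
  have hc0 : c ≠ 0 := by
    rw [hcdef]; exact_mod_cast Nat.card_pos.ne'
  have hN : (Nat.card (Subgroup.normalizer (P : Set G)) : ℂ) = 3 * c := by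
    have h1 := Subgroup.relIndex_mul_relIndex (⊥ : Subgroup G) (Subgroup.centralizer (P : Set G))
      (Subgroup.normalizer (P : Set G)) bot_le (Subgroup.centralizer_le_normalizer _)
    rw [Subgroup.relIndex_bot_left, Subgroup.relIndex_bot_left, hidx] at h1
    rw [← h1, hcdef]; push_cast; ring
  have h1 : ∀ φ : P →* ℂˣ, norSum P φ t * norSum P φ t * norSum P φ z
      = c ^ 3 * (if φ ≠ 1 then orbSum P φ t * orbSum P φ t * orbSum P φ z else 0)
        + (if φ = 1 then 27 * c ^ 3 else 0) := by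
    intro φ
    by_cases hφ : φ = 1
    · subst hφ
      rw [if_neg (fun h => h rfl), if_pos rfl, norSum_one, norSum_one, hN]
      ring
    · rw [if_pos hφ, if_neg hφ, norSum_eq P hc hfree hφ, norSum_eq P hc hfree hφ]
      ring
  rw [Finset.sum_congr rfl (fun φ _ => h1 φ), Finset.sum_add_distrib, ← Finset.mul_sum,
    Finset.sum_ite_eq' Finset.univ (1 : P →* ℂˣ), if_pos (Finset.mem_univ _)] at h0
  have h3 : c ^ 3 ≠ 0 := pow_ne_zero _ hc0
  have h4 : c ^ 3 * ((∑ φ : P →* ℂˣ,
      (if φ ≠ 1 then orbSum P φ t * orbSum P φ t * orbSum P φ z else 0)) + 27) = 0 := by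
    linear_combination h0
  rcases mul_eq_zero.1 h4 with h5 | h5
  · exact absurd h5 h3
  · linear_combination h5

end

end Cfsg.Agent.Lib.Helper2
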