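import Cfsg.Agent.S0925
import Cfsg.Agent.Lib.Helper82.StructConst

/-!
# A block identity coming from products of two conjugates of an element
-/

set_option autoImplicit false
set_option linter.unusedSectionVars false
open Cfsg
open scoped ComplexConjugate

namespace Cfsg.Agent.Lib.Helper2

open Cfsg.Agent.Lib.Helper20 Cfsg.Agent.Lib.Helper81 Cfsg.Agent.Lib.Helper82

section

variable {G : Type*} [Group G] [Fintype G] [Fintype (IrrCharacter G)]

open Classical in
/-- number of ways of writing `u` as a product of two conjugates of `t` (counted in `G × G`) -/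
noncomputable def prodCount (t u : G) : ℂ :=
  ∑ a : G, ∑ b : G, (if a * t * a⁻¹ * (b * t * b⁻¹) = u then (1 : ℂ) else 0)

theorem prodCount_classFunction (t : G) : IsClassFunction G (prodCount t) := by
  classical
  intro g h
  rw [prodCount, prodCount]
  rw [← Equiv.sum_comp (Equiv.mulLeft h)]
  apply Finset.sum_congr rfl; intro a _
  rw [← Equiv.sum_comp (Equiv.mulLeft h)]
  apply Finset.sum_congr rfl; intro b _
  have : (Equiv.mulLeft h a * t * (Equiv.mulLeft h a)⁻¹ *
      (Equiv.mulLeft h b * t * (Equiv.mulLeft h b)⁻¹) = h * g * h⁻¹)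
      ↔ a * t * a⁻¹ * (b * t * b⁻¹) = g := by
    simp only [Equiv.coe_mulLeft]
    constructor
    · intro e
      have : h * (a * t * a⁻¹ * (b * t * b⁻¹)) * h⁻¹ = h * g * h⁻¹ := by
        rw [← e]; group
      exact mul_left_cancel (mul_right_cancel this)
    · intro e
      rw [← e]; group
  simp only [this]

theorem classInner_prodCount (t : G) (χ : IrrCharacter G) :
    classInner (prodCount t) (χ : G → ℂ)
      = (Nat.card G : ℂ) * conj ((χ : G → ℂ) t * (χ : G → ℂ) t / (χ : G → ℂ) 1) := by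
  classical
  have h0 : (Nat.card G : ℂ) ≠ 0 := by exact_mod_cast Nat.card_pos.ne'
  have h1 : ∑ g : G, prodCount t g * conj ((χ : G → ℂ) g)
      = ∑ a : G, ∑ b : G, conj ((χ : G → ℂ) (a * t * a⁻¹ * (b * t * b⁻¹) * 1)) := by
    simp only [prodCount, Finset.sum_mul]
    rw [Finset.sum_comm]
    apply Finset.sum_congr rfl; intro a _
    rw [Finset.sum_comm]
    apply Finset.sum_congr rfl; intro b _
    simp only [ite_mul, one_mul, zero_mul, mul_one]
    rw [Finset.sum_ite_eq Finset.univ, if_pos (Finset.mem_univ _)]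
  rw [classInner, h1]
  have h2 : ∑ a : G, ∑ b : G, conj ((χ : G → ℂ) (a * t * a⁻¹ * (b * t * b⁻¹) * 1))
      = conj (∑ a : G, ∑ b : G, (χ : G → ℂ) (a * t * a⁻¹ * (b * t * b⁻¹) * 1)) := by
    simp only [map_sum]
  rw [h2, isIrr_sum_sum_conj_mul_conj_mul χ.2]
  have h3 := isIrr_one_ne_zero χ.2
  have h4 : (Nat.card G : ℂ) ^ 2 * (χ : G → ℂ) t * (χ : G → ℂ) t * (χ : G → ℂ) 1
      / (χ : G → ℂ) 1 ^ 2
      = (Nat.card G : ℂ) ^ 2 * ((χ : G → ℂ) t * (χ : G → ℂ) t / (χ : G → ℂ) 1) := by
    field_simp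
  rw [h4, map_mul, map_pow, Complex.conj_natCast]
  field_simp

open Classical in
/-- If no element of the `p`-section of `z` is a product of two conjugates of `t`, then the
block sum `∑_{χ ∈ B} conj(χ(t)²/χ(1)) χ(z)` vanishes. -/
theorem block_sum_prod_eq_zero (p : ℕ) [Fact p.Prime] (M : Ideal AlgInt) (hM : IsPModular p M)
    (B : Set (IrrCharacter G)) (hB : IsPBlock M B) (t z : G) (hzp : ∃ k : ℕ, orderOf z = p ^ k)
    (hno : ∀ a b u z' : G, IsPPart p u z' → IsConj z z' → a * t * a⁻¹ * (b * t * b⁻¹) ≠ u) :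
    ∑ χ : IrrCharacter G, (if χ ∈ B then
      conj ((χ : G → ℂ) t * (χ : G → ℂ) t / (χ : G → ℂ) 1) * (χ : G → ℂ) z else 0) = 0 := by
  have h0 : (Nat.card G : ℂ) ≠ 0 := by exact_mod_cast Nat.card_pos.ne'
  have hz : IsPPart p z z := ⟨1, mul_one z, Commute.one_right z, hzp, by
    rw [orderOf_one]; exact (Fact.out : p.Prime).one_lt.ne' ∘ Nat.dvd_one.1⟩
  have h1 := (Cfsg.Agent.S0925.result p M hM).1 (prodCount t) (prodCount_classFunction t) z hzp
    (by
      intro u z' hu hc
      rw [prodCount]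
      apply Finset.sum_eq_zero; intro a _
      apply Finset.sum_eq_zero; intro b _
      rw [if_neg (hno a b u z' hu hc)]) B hB z z hz (IsConj.refl z)
  rw [blockPart_eq_finsum, finsum_mem_irr] at h1
  have h2 : ∀ χ : IrrCharacter G,
      (if χ ∈ B then classInner (prodCount t) (χ : G → ℂ) * (χ : G → ℂ) z else 0)
      = (Nat.card G : ℂ) * (if χ ∈ B then
      conj ((χ : G → ℂ) t * (χ : G → ℂ) t / (χ : G → ℂ) 1) * (χ : G → ℂ) z else 0) := by
    intro χ
    split_ifs
    · rw [classInner_prodCount]; ring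
    · rw [mul_zero]
  rw [Finset.sum_congr rfl (fun χ _ => h2 χ), ← Finset.mul_sum] at h1
  exact (mul_eq_zero.1 h1).resolve_left h0

end

end Cfsg.Agent.Lib.Helper2
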