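import Cfsg.Agent.Lib.Helper83.AbSylow
import Cfsg.Agent.Lib.Helper81.SecondMain3

/-!
# Non-real elements of an abelian Sylow 2-subgroup with automizer of order 3
-/

set_option autoImplicit false
set_option linter.unusedSectionVars false
open Cfsg

namespace Cfsg.Agent.Lib.Helper2

open Cfsg.Agent.Lib.Helper83 Cfsg.Agent.Lib.Helper81

section

variable {G : Type*} [Group G]

theorem orderOf_conj' (s x : G) : orderOf (s * x * s⁻¹) = orderOf x := by
  rw [← MulAut.conj_apply]; exact MulEquiv.orderOf_eq _ _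

theorem isPPart_conj {p : ℕ} {u x : G} (h : IsPPart p u x) (s : G) :
    IsPPart p (s * u * s⁻¹) (s * x * s⁻¹) := by
  obtain ⟨y, hy, hc, hx, hyo⟩ := h
  refine ⟨s * y * s⁻¹, ?_, ?_, ?_, ?_⟩
  · rw [← hy]; group
  · have := hc.eq
    show s * x * s⁻¹ * (s * y * s⁻¹) = s * y * s⁻¹ * (s * x * s⁻¹)
    calc s * x * s⁻¹ * (s * y * s⁻¹) = s * (x * y) * s⁻¹ := by group
      _ = s * (y * x) * s⁻¹ := by rw [this]
      _ = _ := by group
  · rw [orderOf_conj']; exact hx
  · rw [orderOf_conj']; exact hyo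

theorem isPPart_inv {p : ℕ} {u x : G} (h : IsPPart p u x) : IsPPart p u⁻¹ x⁻¹ := by
  obtain ⟨y, hy, hc, hx, hyo⟩ := h
  refine ⟨y⁻¹, ?_, hc.inv_inv, ?_, ?_⟩
  · rw [← hy, hc.eq, mul_inv_rev]
  · rw [orderOf_inv]; exact hx
  · rw [orderOf_inv]; exact hyo

variable [Finite G]

/-- In a group with an abelian Sylow `2`-subgroup `P` whose automizer has order `3` and acts freely,
an element `z ∈ P` with `z² ≠ 1` is not conjugate to its inverse. -/
theorem not_conj_inv (P : Sylow 2 G) [IsMulCommutative P]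
    (hCN : (Subgroup.centralizer ((P : Subgroup G) : Set G)).relIndex
      (Subgroup.normalizer ((P : Subgroup G) : Set G)) = 3)
    (hfrob : ∀ y : G, y ∈ (P : Subgroup G) → y ≠ 1 →
      Subgroup.centralizer ({y} : Set G) ⊓ Subgroup.normalizer ((P : Subgroup G) : Set G)
        = Subgroup.centralizer ((P : Subgroup G) : Set G))
    {z : G} (hzP : z ∈ (P : Subgroup G)) (hz : z * z ≠ 1) (g : G) : g * z * g⁻¹ ≠ z⁻¹ := by
  intro hg
  have hz1 : z ≠ 1 := by rintro rfl; exact hz (one_mul 1)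
  obtain ⟨n, hn, hnz⟩ := abelian_sylow_fusion P hzP g (by rw [hg]; exact inv_mem hzP)
  rw [hg] at hnz
  set N := Subgroup.normalizer ((P : Subgroup G) : Set G) with hN
  set C := Subgroup.centralizer ((P : Subgroup G) : Set G) with hC
  have hnorm : (C.subgroupOf N).Normal := by
    rw [hC, hN, ← Subgroup.normalizerMonoidHom_ker]; infer_instance
  have h3 : n ^ 3 ∈ C := by
    have := Subgroup.pow_index_mem (C.subgroupOf N) (⟨n, hn⟩ : N)
    rw [show (C.subgroupOf N).index = 3 from hCN, Subgroup.mem_subgroupOf] at this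
    simpa using this
  have h2 : n ^ 2 ∈ C := by
    rw [← hfrob z hzP hz1]
    refine Subgroup.mem_inf.2 ⟨?_, Subgroup.pow_mem _ hn 2⟩
    rw [Subgroup.mem_centralizer_singleton_iff]
    have e1 : n * z = z⁻¹ * n := by rw [← hnz]; group
    have e3 : n * z⁻¹ * n⁻¹ = z := by
      have h5 : (n * z * n⁻¹)⁻¹ = z⁻¹⁻¹ := congrArg (·⁻¹) hnz
      rw [inv_inv] at h5
      calc n * z⁻¹ * n⁻¹ = (n * z * n⁻¹)⁻¹ := by group
        _ = z := h5
    have e2 : n * z⁻¹ = z * n := by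
      calc n * z⁻¹ = (n * z⁻¹ * n⁻¹) * n := by group
        _ = z * n := by rw [e3]
    calc n ^ 2 * z = n * (n * z) := by rw [pow_two, mul_assoc]
      _ = n * z⁻¹ * n := by rw [e1, mul_assoc]
      _ = z * n ^ 2 := by rw [e2, pow_two, mul_assoc]
  have h1 : n ∈ C := by
    have : n = n ^ 3 * (n ^ 2)⁻¹ := by group
    rw [this]; exact mul_mem h3 (inv_mem h2)
  have h4 : z * n = n * z := Subgroup.mem_centralizer_iff.1 h1 z hzP
  apply hz
  have : z = z⁻¹ := by
    rw [← hnz, ← h4]; group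
  calc z * z = z * z⁻¹ := by rw [← this]
    _ = 1 := mul_inv_cancel z

/-- No element of the `2`-section of such a `z` is a product of two involutions. -/
theorem no_prod_of_section (P : Sylow 2 G) [IsMulCommutative P]
    (hCN : (Subgroup.centralizer ((P : Subgroup G) : Set G)).relIndex
      (Subgroup.normalizer ((P : Subgroup G) : Set G)) = 3)
    (hfrob : ∀ y : G, y ∈ (P : Subgroup G) → y ≠ 1 →
      Subgroup.centralizer ({y} : Set G) ⊓ Subgroup.normalizer ((P : Subgroup G) : Set G)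
        = Subgroup.centralizer ((P : Subgroup G) : Set G))
    {z t : G} (hzP : z ∈ (P : Subgroup G)) (hz : z * z ≠ 1) (ht : t * t = 1)
    (a b u z' : G) (hu : IsPPart 2 u z') (hc : IsConj z z') :
    a * t * a⁻¹ * (b * t * b⁻¹) ≠ u := by
  have := Fintype.ofFinite G
  intro he
  obtain ⟨s, hs⟩ : ∃ s, s = a * t * a⁻¹ := ⟨_, rfl⟩
  obtain ⟨s', hs'⟩ : ∃ s', s' = b * t * b⁻¹ := ⟨_, rfl⟩
  rw [← hs, ← hs'] at he
  have hs2 : s * s = 1 := by
    calc s * s = a * (t * t) * a⁻¹ := by rw [hs]; group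
      _ = 1 := by rw [ht]; group
  have hs'2 : s' * s' = 1 := by
    calc s' * s' = b * (t * t) * b⁻¹ := by rw [hs']; group
      _ = 1 := by rw [ht]; group
  have hsinv : s⁻¹ = s := inv_eq_of_mul_eq_one_left hs2
  have hs'inv : s'⁻¹ = s' := inv_eq_of_mul_eq_one_left hs'2
  have h1 : s * u * s⁻¹ = u⁻¹ := by
    rw [← he, mul_inv_rev, hsinv, hs'inv, ← mul_assoc, hs2, one_mul]
  have h2 : s * z' * s⁻¹ = z'⁻¹ :=
    isPPart_unique Nat.prime_two (h1 ▸ isPPart_conj hu s) (isPPart_inv hu)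
  obtain ⟨c, hc⟩ := isConj_iff.1 hc
  -- `c * z * c⁻¹ = z'`
  apply not_conj_inv P hCN hfrob hzP hz (c⁻¹ * s * c)
  have : z = c⁻¹ * z' * c := by rw [← hc]; group
  calc c⁻¹ * s * c * z * (c⁻¹ * s * c)⁻¹ = c⁻¹ * (s * (c * z * c⁻¹) * s⁻¹) * c := by group
    _ = c⁻¹ * z'⁻¹ * c := by rw [hc, h2]
    _ = z⁻¹ := by rw [this]; group

end

end Cfsg.Agent.Lib.Helper2
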