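import Cfsg.Agent.Lib.Helper83.BLShape
import Cfsg.Agent.Lib.Helper2.BrauerHomoA
import Cfsg.Agent.Lib.Helper2.BrauerHomoB
import Cfsg.Agent.Lib.Helper2.BrauerHomoC
import Cfsg.Agent.Lib.Helper2.BrauerHomoD

/-!
# Brauer's theorem for Sylow 2-subgroups of type `(2^m, 2^m)`: the character theoretic part
-/

set_option autoImplicit false
set_option linter.unusedSectionVars false
set_option maxHeartbeats 1000000
open Cfsg
open scoped ComplexConjugate

namespace Cfsg.Agent.Lib.Helper2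

open Cfsg.Agent.Lib.Helper20 Cfsg.Agent.Lib.Helper46 Cfsg.Agent.Lib.Helper81
  Cfsg.Agent.Lib.Helper51 Cfsg.Agent.Lib.Helper83

section

variable {G : Type*} [Group G] [Fintype G] [Fintype (IrrCharacter G)] {p : ℕ} [Fact p.Prime]
  {M : Ideal AlgInt}
variable {P : Subgroup G} [Fintype P] {ε d : ℤ} {ζ : (P →* ℂˣ) → IrrCharacter G}
  {a : IrrCharacter G → ℤ}

open Classical in
/-- sums over the exceptional characters versus sums over the nontrivial linear characters -/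
theorem BLShape_sum_exc (h : BLShape M P ε d ζ a) (hc : ∀ a b : P, a * b = b * a)
    (hfree : FreeNC P) [Fintype (P →* ℂˣ)] (F : IrrCharacter G → ℂ) :
    ∑ ψ : P →* ℂˣ, (if ψ ≠ 1 then F (ζ ψ) else 0)
      = ((Subgroup.centralizer (P : Set G)).relIndex (Subgroup.normalizer (P : Set G)) : ℂ)
        * ∑ χ : IrrCharacter G, (if χ ∈ excSet ζ then F χ else 0) := by
  rw [← Finset.sum_filter, Finset.mul_sum,
    ← Finset.sum_fiberwise (Finset.univ.filter (fun ψ : P →* ℂˣ => ψ ≠ 1)) ζ]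
  apply Finset.sum_congr rfl
  intro χ _
  have h2 : ∀ ψ ∈ (Finset.univ.filter (fun ψ : P →* ℂˣ => ψ ≠ 1)).filter (fun ψ => ζ ψ = χ),
      F (ζ ψ) = F χ := by
    intro ψ hψ
    rw [(Finset.mem_filter.1 hψ).2]
  rw [Finset.sum_congr rfl h2, Finset.sum_const, nsmul_eq_mul]
  by_cases hχ : χ ∈ excSet ζ
  · rw [if_pos hχ]
    obtain ⟨φ, hφ, rfl⟩ := hχ
    congr 2
    rw [← card_dualRel_class P hc hfree hφ, Nat.card_eq_fintype_card, Fintype.card_subtype]
    congr 1
    ext ψ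
    simp only [Finset.mem_filter, Finset.mem_univ, true_and]
    constructor
    · rintro ⟨h1, h2⟩
      exact (h.inj φ ψ hφ h1).1 h2.symm
    · intro h1
      have h2 := dualRel_ne_one P h1 hφ
      exact ⟨h2, ((h.inj φ ψ hφ h2).2 h1).symm⟩
  · rw [if_neg hχ, mul_zero]
    have : (Finset.univ.filter (fun ψ : P →* ℂˣ => ψ ≠ 1)).filter (fun ψ => ζ ψ = χ) = ∅ := by
      apply Finset.filter_eq_empty_iff.2
      intro ψ hψ he
      exact hχ ⟨ψ, (Finset.mem_filter.1 hψ).2, he⟩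
    rw [this]; simp

/-- congruence for a character constant on `P^#` -/
theorem dvd_degree_sub (χ : IrrCharacter G) (c : ℤ) (n : ℕ) (hn : (χ : G → ℂ) 1 = n)
    (hval : ∀ y : P, y ≠ 1 → (χ : G → ℂ) y = (c : ℂ)) : (Nat.card P : ℤ) ∣ (n : ℤ) - c := by
  classical
  have h0 : (Nat.card P : ℂ) ≠ 0 := by exact_mod_cast Nat.card_pos.ne'
  have h1 := cZ_spec P χ 1
  rw [cfP, classInner] at h1
  have h2 : ∑ g : P, (χ : G → ℂ) g * conj (((1 : P →* ℂˣ) g : ℂˣ) : ℂ)
      = (n : ℂ) + ((Nat.card P : ℂ) - 1) * c := by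
    rw [← Finset.add_sum_erase Finset.univ _ (Finset.mem_univ (1 : P))]
    have h3 : ∀ y ∈ Finset.univ.erase (1 : P),
        (χ : G → ℂ) y * conj (((1 : P →* ℂˣ) y : ℂˣ) : ℂ) = (c : ℂ) := by
      intro y hy
      rw [hval y (Finset.ne_of_mem_erase hy)]
      simp
    rw [Finset.sum_congr rfl h3, Finset.sum_const, Finset.card_erase_of_mem (Finset.mem_univ _),
      Finset.card_univ, nsmul_eq_mul, Nat.card_eq_fintype_card,
      Nat.cast_sub Fintype.card_pos]
    simp [hn]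
  rw [h2] at h1
  refine ⟨cZ P χ 1 - c, ?_⟩
  have h4 : ((n : ℂ) - c) = (Nat.card P : ℂ) * (((cZ P χ 1 : ℤ) : ℂ) - c) := by
    rw [h1]; field_simp; ring
  exact_mod_cast h4

end

end Cfsg.Agent.Lib.Helper2
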