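import Cfsg.Agent.Lib.Helper2.BrauerHomoE

/-!
# Brauer's theorem for Sylow 2-subgroups of type `(2^m, 2^m)`: a nontrivial linear character
-/

set_option autoImplicit false
set_option linter.unusedSectionVars false
set_option maxHeartbeats 1000000
open Cfsg
open scoped ComplexConjugate

namespace Cfsg.Agent.Lib.Helper2

open Cfsg.Agent.Lib.Helper20 Cfsg.Agent.Lib.Helper46 Cfsg.Agent.Lib.Helper81
  Cfsg.Agent.Lib.Helper51 Cfsg.Agent.Lib.Helper83

/-- the algebra behind the final equation -/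
theorem brauer_algebra (A₁ A₂ E N₁ N₂ K : ℂ) (hA₁ : A₁ * A₁ = 1) (hA₂ : A₂ * A₂ = 1)
    (hE : E * E = 1) (hN₁ : N₁ ≠ 0) (hN₂ : N₂ ≠ 0) (hK : K ≠ 0)
    (h2 : E * K = 1 + A₁ * N₁ + A₂ * N₂)
    (h1 : 1 + A₁ * A₁ * A₁ / N₁ + A₂ * A₂ * A₂ / N₂ - 9 * (E / K) = 0) :
    (A₁ * N₁ * (A₂ * N₂) + A₁ * N₁ + A₂ * N₂) * (1 + A₁ * N₁ + A₂ * N₂)
      = 9 * (A₁ * N₁ * (A₂ * N₂)) := by
  have h3 : N₁ * N₂ * K + A₁ * A₁ * A₁ * N₂ * K + A₂ * A₂ * A₂ * N₁ * K - 9 * E * N₁ * N₂ = 0 := by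
    have : N₁ * N₂ * K + A₁ * A₁ * A₁ * N₂ * K + A₂ * A₂ * A₂ * N₁ * K - 9 * E * N₁ * N₂
        = (1 + A₁ * A₁ * A₁ / N₁ + A₂ * A₂ * A₂ / N₂ - 9 * (E / K)) * (N₁ * N₂ * K) := by
      field_simp
    rw [this, h1, zero_mul]
  rw [← h2]
  have h4 : A₁ * A₁ * A₁ = A₁ := by rw [hA₁, one_mul]
  have h5 : A₂ * A₂ * A₂ = A₂ := by rw [hA₂, one_mul]
  rw [h4, h5] at h3
  linear_combination (E * A₁ * A₂) * h3 - (A₂ * N₂ * E * K) * hA₁ - (A₁ * N₁ * E * K) * hA₂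
    + (9 * A₁ * A₂ * N₁ * N₂) * hE

theorem exists_linear_principal {G : Type*} [Group G] [Finite G] (M : Ideal AlgInt)
    (hM : IsPModular 2 M) (P : Sylow 2 G) (hab : IsMulCommutative P)
    (hCN : (Subgroup.centralizer ((P : Subgroup G) : Set G)).relIndex
      (Subgroup.normalizer ((P : Subgroup G) : Set G)) = 3)
    (hfrob : ∀ y : G, y ∈ (P : Subgroup G) → y ≠ 1 →
      Subgroup.centralizer ({y} : Set G) ⊓ Subgroup.normalizer ((P : Subgroup G) : Set G)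
        = Subgroup.centralizer ((P : Subgroup G) : Set G))
    (h16 : 16 ∣ Nat.card (P : Subgroup G)) (t z : (P : Subgroup G)) (ht1 : t ≠ 1)
    (ht : t * t = 1) (hz : z * z ≠ 1) :
    ∃ χ : IrrCharacter G, χ ∈ principalBlock M G ∧ χ ≠ oneIrr G ∧ (χ : G → ℂ) 1 = 1 ∧
      ∀ y : (P : Subgroup G), y ≠ 1 → (χ : G → ℂ) y = 1 := by
  classical
  have := hab
  have := Fintype.ofFinite G
  have : Finite (IrrCharacter G) := finite_irrCharacter
  have : Fintype (IrrCharacter G) := Fintype.ofFinite _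
  have : Fintype (P : Subgroup G) := Fintype.ofFinite _
  have hc : ∀ a b : (P : Subgroup G), a * b = b * a := fun a b => hab.is_comm.comm a b
  have hfree := freeNC_of_frob (P : Subgroup G) hfrob
  have : Finite ((P : Subgroup G) →* ℂˣ) := finite_hom hc
  have : Fintype ((P : Subgroup G) →* ℂˣ) := Fintype.ofFinite _
  have hP16 : 16 ≤ Nat.card (P : Subgroup G) := Nat.le_of_dvd Nat.card_pos h16
  have hm2' : (Subgroup.centralizer ((P : Subgroup G) : Set G)).relIndex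
      (Subgroup.normalizer ((P : Subgroup G) : Set G)) + 1 < Nat.card (P : Subgroup G) := by
    rw [hCN]; omega
  obtain ⟨ε, d, ζ, a, h⟩ := exists_blShape hM P hfrob hm2'
  obtain ⟨ψ₀, ψ₁, hψ₀, hψ₁, hnrel⟩ := exists_two_orbits (P : Subgroup G) hc hfree hm2'
  have hcardY : Nat.card (excSet ζ) * 3 = Nat.card (P : Subgroup G) - 1 := by
    have := h.card_exc hc hfree
    rwa [hCN] at this
  have hr5 : (5 : ℤ) ≤ (Nat.card (excSet ζ) : ℤ) := by
    have : 5 ≤ Nat.card (excSet ζ) := by omega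
    exact_mod_cast this
  have hnorm := h.norm_eq hψ₀ ((3 : ℕ) : ℤ) (by
    rw [blK_gram hM P hfrob hψ₀ hψ₀, hCN, if_pos (dualRel_refl _ _)])
  have hε0 : ε * ε = 1 := h.eps_sq
  set X : Set (IrrCharacter G) := principalBlock M G \ excSet ζ with hX
  -- the principal character is not exceptional
  have hone : oneIrr G ∈ X := by
    refine ⟨oneIrr_mem hM, ?_⟩
    rintro ⟨φ, hφ, he⟩
    obtain ⟨φ', hφ', hn⟩ : ∃ φ', φ' ≠ 1 ∧ ¬ dualRel (P : Subgroup G) φ' φ := by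
      by_cases h0 : dualRel (P : Subgroup G) ψ₀ φ
      · exact ⟨ψ₁, hψ₁, fun h1 => hnrel (dualRel_trans _ h0 (dualRel_symm _ h1))⟩
      · exact ⟨ψ₀, hψ₀, h0⟩
    have hne : ζ φ ≠ ζ φ' := fun hh => hn (dualRel_symm _ ((h.inj φ φ' hφ hφ').1 hh))
    have h1 := h.shape φ hφ (ζ φ)
    have h2 := h.shape φ' hφ' (ζ φ)
    rw [if_pos rfl] at h1
    rw [if_neg hne] at h2
    rw [blK_of_mem M _ _ (h.mem φ hφ)] at h1 h2
    have hz : ∀ ξ : (P : Subgroup G) →* ℂˣ, ξ ≠ 1 → cZ (P : Subgroup G) (ζ φ) ξ = 0 := by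
      intro ξ hξ
      have : ((cZ (P : Subgroup G) (ζ φ) ξ : ℤ) : ℂ) = 0 := by
        rw [cZ_spec, he, cfP, classInner]
        have h3 := sum_hom_orth (1 : (P : Subgroup G) →* ℂˣ) ξ
        rw [if_neg (Ne.symm hξ)] at h3
        simp only [MonoidHom.one_apply, Units.val_one] at h3
        simp only [oneIrr]
        rw [h3, mul_zero]
      exact_mod_cast this
    rw [hz φ hφ] at h1
    rw [hz φ' hφ'] at h2
    have : ε = 0 := by linarith
    rw [this] at hε0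
    norm_num at hε0
  have ha0 : ∀ χ ∈ X, a χ ≠ 0 := by
    intro χ hχ h0
    have h1 := h.value_nonexc hc hχ ht1
    rw [h0, Int.cast_zero] at h1
    exact principal_ne_zero hM P (sylow_le_centralizer_singleton P t.2) hχ.1 h1
  have ha_one : a (oneIrr G) = 1 := by
    have h1 := h.value_nonexc hc hone ht1
    have h2 : (oneIrr G : G → ℂ) (t : G) = 1 := rfl
    rw [h2] at h1
    exact_mod_cast h1.symm
  set Xf : Finset (IrrCharacter G) := Finset.univ.filter (· ∈ X) with hXf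
  have honeXf : oneIrr G ∈ Xf := Finset.mem_filter.2 ⟨Finset.mem_univ _, hone⟩
  rw [← Finset.sum_filter] at hnorm
  have hge1 : (1 : ℤ) ≤ ∑ χ ∈ Xf, a χ ^ 2 := by
    have := Finset.single_le_sum (f := fun χ => a χ ^ 2) (fun χ _ => sq_nonneg _) honeXf
    simp only [ha_one] at this
    linarith
  have hd : d = 0 := by
    by_contra hd
    have h2 : 1 ≤ d ^ 2 := by
      have : 0 < d ^ 2 := by positivity
      omega
    have h3 : 4 ≤ ((Nat.card (excSet ζ) : ℤ) - 1) * d ^ 2 := by nlinarith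
    have h4 := sq_nonneg (d - ε)
    push_cast at hnorm
    linarith
  subst hd
  have hsum3 : ∑ χ ∈ Xf, a χ ^ 2 = 3 := by
    have : (0 - ε) ^ 2 = 1 := by rw [← hε0]; ring
    rw [this] at hnorm
    push_cast at hnorm
    linarith
  obtain ⟨hcard3, hpm⟩ := sq_sum_three Xf a
    (fun χ hχ => ha0 χ (Finset.mem_filter.1 hχ).2) hsum3
  have hcard2 : (Xf.erase (oneIrr G)).card = 2 := by
    rw [Finset.card_erase_of_mem honeXf, hcard3]
  obtain ⟨χ₁, χ₂, hne12, hpair⟩ := Finset.card_eq_two.1 hcard2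
  have hsplit : ∀ F : IrrCharacter G → ℂ,
      ∑ χ : IrrCharacter G, (if χ ∈ X then F χ else 0) = F (oneIrr G) + (F χ₁ + F χ₂) := by
    intro F
    rw [← Finset.sum_filter, ← Finset.add_sum_erase _ _ honeXf, hpair, Finset.sum_pair hne12]
  have hχ₁e : χ₁ ∈ Xf.erase (oneIrr G) := by rw [hpair]; simp
  have hχ₂e : χ₂ ∈ Xf.erase (oneIrr G) := by rw [hpair]; simp
  have hχ₁X : χ₁ ∈ X := (Finset.mem_filter.1 (Finset.mem_of_mem_erase hχ₁e)).2
  have hχ₂X : χ₂ ∈ X := (Finset.mem_filter.1 (Finset.mem_of_mem_erase hχ₂e)).2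
  have hχ₁ne : χ₁ ≠ oneIrr G := Finset.ne_of_mem_erase hχ₁e
  obtain ⟨n₁, hn₁pos, hn₁⟩ := isIrr_one χ₁.2
  obtain ⟨n₂, hn₂pos, hn₂⟩ := isIrr_one χ₂.2
  obtain ⟨k, hkpos, hk⟩ := isIrr_one (ζ ψ₀).2
  have hA₁ : a χ₁ * a χ₁ = 1 := by
    rcases hpm χ₁ (Finset.mem_of_mem_erase hχ₁e) with h | h <;> rw [h] <;> norm_num
  have hA₂ : a χ₂ * a χ₂ = 1 := by
    rcases hpm χ₂ (Finset.mem_of_mem_erase hχ₂e) with h | h <;> rw [h] <;> norm_num
  -- (E2)
  have hE2 : (ε : ℂ) * k = 1 + (a χ₁ : ℂ) * n₁ + (a χ₂ : ℂ) * n₂ := by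
    have hreg := h.regular_rel hM P.2 hψ₀ (g := 1) (by rw [orderOf_one]; norm_num)
    rw [hsplit (fun χ => (a χ : ℂ) * (χ : G → ℂ) 1), hk, hn₁, hn₂, ha_one] at hreg
    have h2 : (oneIrr G : G → ℂ) 1 = 1 := rfl
    rw [h2] at hreg
    push_cast at hreg
    linear_combination -hreg
  -- (E1)
  have ht' : (t : G) * (t : G) = 1 := congrArg Subtype.val ht
  have hz' : (z : G) * (z : G) ≠ 1 := fun hh => hz (Subtype.ext hh)
  have hzp : ∃ j : ℕ, orderOf (z : G) = 2 ^ j := by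
    obtain ⟨j, hj⟩ := (IsPGroup.iff_orderOf.1 P.2) z
    exact ⟨j, by rw [← hj, ← Subgroup.orderOf_coe]⟩
  have hE1 := block_sum_prod_eq_zero 2 M hM (principalBlock M G) ⟨oneIrr G, rfl⟩ (t : G) (z : G)
    hzp (no_prod_of_section P hCN hfrob z.2 hz' ht')
  have htinv : (t : G)⁻¹ = t := inv_eq_of_mul_eq_one_left ht'
  have hz1 : z ≠ 1 := by rintro rfl; exact hz (one_mul 1)
  set F : IrrCharacter G → ℂ := fun χ =>
    (χ : G → ℂ) t * (χ : G → ℂ) t * (χ : G → ℂ) z / (χ : G → ℂ) 1 with hF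
  have hFeq : ∀ χ : IrrCharacter G,
      conj ((χ : G → ℂ) t * (χ : G → ℂ) t / (χ : G → ℂ) 1) * (χ : G → ℂ) z = F χ := by
    intro χ
    obtain ⟨n, _, hn⟩ := isIrr_one χ.2
    have h1 : conj ((χ : G → ℂ) t) = (χ : G → ℂ) t := by
      rw [← isCharacter_inv (isCharacter_of_isIrrCharacter χ.2), htinv]
    rw [hF]
    simp only [map_div₀, map_mul, h1, hn, Complex.conj_natCast]
    ring
  have hE1' : (∑ χ : IrrCharacter G, if χ ∈ X then F χ else 0)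
      + (∑ χ : IrrCharacter G, if χ ∈ excSet ζ then F χ else 0) = 0 := by
    rw [← Finset.sum_add_distrib]
    refine Eq.trans (Finset.sum_congr rfl ?_) hE1
    intro χ _
    rw [hFeq]
    by_cases hY : χ ∈ excSet ζ
    · rw [if_pos hY, if_pos (h.exc_subset hY), if_neg (fun hh : χ ∈ X => hh.2 hY), zero_add]
    · rw [if_neg hY, add_zero]
      by_cases hB : χ ∈ principalBlock M G
      · rw [if_pos hB, if_pos (show χ ∈ X from ⟨hB, hY⟩)]
      · rw [if_neg hB, if_neg (fun hh : χ ∈ X => hB hh.1)]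
  -- the exceptional part
  have hexc : (3 : ℂ) * (∑ χ : IrrCharacter G, if χ ∈ excSet ζ then F χ else 0)
      = -27 * ((ε : ℂ) / k) := by
    have h1 := BLShape_sum_exc h hc hfree F
    rw [hCN] at h1
    push_cast at h1
    rw [← h1, ← sum_orbSum_cube (P : Subgroup G) hc hfree hCN t z ht hz, Finset.sum_mul]
    apply Finset.sum_congr rfl
    intro ψ _
    by_cases hψ : ψ = 1
    · rw [if_neg (fun hh => hh hψ), if_neg (fun hh => hh hψ), zero_mul]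
    · rw [if_pos hψ, if_pos hψ, hF]
      have e1 : (ζ ψ : G → ℂ) 1 = k := by
        rw [← hk]
        exact h.exc_agree hM P.2 hψ hψ₀ (by rw [orderOf_one]; norm_num)
      have e2 : (ζ ψ : G → ℂ) t = (ε : ℂ) * orbSum (P : Subgroup G) ψ t := by
        rw [h.value_exc hc hψ ht1]; simp [orbSum]
      have e3 : (ζ ψ : G → ℂ) z = (ε : ℂ) * orbSum (P : Subgroup G) ψ z := by
        rw [h.value_exc hc hψ hz1]; simp [orbSum]
      simp only [e1, e2, e3]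
      have hεC : (ε : ℂ) * ε = 1 := by exact_mod_cast hε0
      have hk0 : (k : ℂ) ≠ 0 := by exact_mod_cast hkpos.ne'
      field_simp
      linear_combination (orbSum (P : Subgroup G) ψ t ^ 2 * orbSum (P : Subgroup G) ψ z * ε) * hεC
  have hFone : F (oneIrr G) = 1 := by
    rw [hF]
    show (1 : ℂ) * 1 * 1 / 1 = 1
    norm_num
  have hF₁ : F χ₁ = (a χ₁ : ℂ) * a χ₁ * a χ₁ / n₁ := by
    rw [hF]
    simp only [h.value_nonexc hc hχ₁X ht1, h.value_nonexc hc hχ₁X hz1, hn₁]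
  have hF₂ : F χ₂ = (a χ₂ : ℂ) * a χ₂ * a χ₂ / n₂ := by
    rw [hF]
    simp only [h.value_nonexc hc hχ₂X ht1, h.value_nonexc hc hχ₂X hz1, hn₂]
  have hfinal : 1 + (a χ₁ : ℂ) * a χ₁ * a χ₁ / n₁ + (a χ₂ : ℂ) * a χ₂ * a χ₂ / n₂
      - 9 * ((ε : ℂ) / k) = 0 := by
    rw [hsplit F, hFone, hF₁, hF₂] at hE1'
    linear_combination hE1' - (1 / 3 : ℂ) * hexc
  have halg := brauer_algebra (a χ₁ : ℂ) (a χ₂ : ℂ) (ε : ℂ) n₁ n₂ k (by exact_mod_cast hA₁)
    (by exact_mod_cast hA₂) (by exact_mod_cast hε0) (by exact_mod_cast hn₁pos.ne')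
    (by exact_mod_cast hn₂pos.ne') (by exact_mod_cast hkpos.ne') hE2 hfinal
  have halgZ : (a χ₁ * n₁ * (a χ₂ * n₂) + a χ₁ * n₁ + a χ₂ * n₂) * (1 + a χ₁ * n₁ + a χ₂ * n₂)
      = 9 * (a χ₁ * n₁ * (a χ₂ * n₂)) := by exact_mod_cast halg
  have hcong : ∀ (χ : IrrCharacter G) (n : ℕ), χ ∈ X → a χ * a χ = 1 → (χ : G → ℂ) 1 = n →
      (16 : ℤ) ∣ a χ * n - 1 := by
    intro χ n hχ haa hn
    have h1 := dvd_degree_sub (P := (P : Subgroup G)) χ (a χ) n hn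
      (fun y hy => h.value_nonexc hc hχ hy)
    have h2 : (16 : ℤ) ∣ (n : ℤ) - a χ := Dvd.dvd.trans (by exact_mod_cast h16) h1
    have h3 : a χ * n - 1 = a χ * ((n : ℤ) - a χ) := by linear_combination haa
    rw [h3]
    exact Dvd.dvd.mul_left h2 _
  obtain ⟨hx₁, -⟩ := brauer_dioph (a χ₁ * n₁) (a χ₂ * n₂) (hcong χ₁ n₁ hχ₁X hA₁ hn₁)
    (hcong χ₂ n₂ hχ₂X hA₂ hn₂) halgZ
  have ha₁ : a χ₁ = 1 ∧ n₁ = 1 := by
    rcases hpm χ₁ (Finset.mem_of_mem_erase hχ₁e) with h | h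
    · rw [h] at hx₁
      exact ⟨h, by omega⟩
    · rw [h] at hx₁
      omega
  refine ⟨χ₁, hχ₁X.1, hχ₁ne, by rw [hn₁, ha₁.2]; norm_num, ?_⟩
  intro y hy
  rw [h.value_nonexc hc hχ₁X hy, ha₁.1]
  norm_num

end Cfsg.Agent.Lib.Helper2
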