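import Cfsg.Agent.Lib.Helper2.BrauerHomoF
import Cfsg.Agent.Lib.Helper82.CharKer
import Cfsg.Agent.Lib.Helper78.DefectZero
import Cfsg.Agent.S0942

/-!
# Brauer's theorem for Sylow 2-subgroups of type `(2^m, 2^m)`: the group theoretic end game
-/

set_option autoImplicit false
set_option linter.unusedSectionVars false
open Cfsg

namespace Cfsg.Agent.Lib.Helper2

open Cfsg.Agent.Lib.Helper20 Cfsg.Agent.Lib.Helper46 Cfsg.Agent.Lib.Helper81
  Cfsg.Agent.Lib.Helper51 Cfsg.Agent.Lib.Helper83 Cfsg.Agent.Lib.Helper82 Cfsg.Agent.Lib.Helper78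

/-- an element whose order is coprime to the index of a normal subgroup lies in it -/
theorem mem_of_coprime_index {G : Type*} [Group G] (K : Subgroup G) [K.Normal] {x : G}
    (h : Nat.Coprime (orderOf x) K.index) : x ∈ K := by
  rw [← QuotientGroup.eq_one_iff, ← orderOf_eq_one_iff]
  have h1 : orderOf (x : G ⧸ K) ∣ orderOf x := orderOf_map_dvd (QuotientGroup.mk' K) x
  have h2 : orderOf (x : G ⧸ K) ∣ K.index := by
    rw [Subgroup.index_eq_card]; exact orderOf_dvd_natCard _
  exact Nat.eq_one_of_dvd_coprimes h h1 h2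

/-- a normal Hall subgroup of a normal subgroup is normal -/
theorem normal_map_of_hall {G : Type*} [Group G] [Finite G] (K : Subgroup G) [K.Normal]
    (Q : Subgroup K) [Q.Normal] (hcop : Nat.Coprime (Nat.card Q) Q.index) :
    (Q.map K.subtype).Normal := by
  constructor
  rintro x ⟨k, hk, rfl⟩ g
  have hK : g * (k : G) * g⁻¹ ∈ K := (inferInstance : K.Normal).conj_mem _ k.2 g
  refine ⟨⟨g * (k : G) * g⁻¹, hK⟩, ?_, rfl⟩
  apply mem_of_coprime_index Q
  have h1 : orderOf (⟨g * (k : G) * g⁻¹, hK⟩ : K) = orderOf k := by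
    rw [← Subgroup.orderOf_coe, ← Subgroup.orderOf_coe]
    exact orderOf_conj' g (k : G)
  rw [h1]
  have h2 : orderOf k ∣ Nat.card Q := by
    have := orderOf_dvd_natCard (⟨k, hk⟩ : Q)
    rwa [← Subgroup.orderOf_coe] at this
  exact Nat.Coprime.coprime_dvd_left h2 hcop

theorem brauer_endgame {G : Type*} [Group G] [Finite G] (P : Sylow 2 G)
    (hab : IsMulCommutative P)
    (hCN : (Subgroup.centralizer ((P : Subgroup G) : Set G)).relIndex
      (Subgroup.normalizer ((P : Subgroup G) : Set G)) = 3)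
    (hfrob : ∀ y : G, y ∈ (P : Subgroup G) → y ≠ 1 →
      Subgroup.centralizer ({y} : Set G) ⊓ Subgroup.normalizer ((P : Subgroup G) : Set G)
        = Subgroup.centralizer ((P : Subgroup G) : Set G))
    (h16 : 16 ∣ Nat.card (P : Subgroup G)) (t z : (P : Subgroup G)) (ht1 : t ≠ 1)
    (ht : t * t = 1) (hz : z * z ≠ 1)
    (hO : ∀ N : Subgroup G, N.Normal → Odd (Nat.card N) → N = ⊥) :
    (P : Subgroup G).Normal ∧ Subgroup.centralizer (P : Set G) = (P : Subgroup G) ∧
      (P : Subgroup G).index = 3 := by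
  classical
  have := hab
  obtain ⟨M, hM⟩ := exists_isPModular Nat.prime_two
  obtain ⟨χ, hχB, hχne, hχ1, hχP⟩ :=
    exists_linear_principal M hM P hab hCN hfrob h16 t z ht1 ht hz
  have hχc : IsCharacter G (χ : G → ℂ) := isCharacter_of_isIrrCharacter χ.2
  set K : Subgroup G := charKer (χ : G → ℂ) hχc with hK
  set N := Subgroup.normalizer ((P : Subgroup G) : Set G) with hN
  set C := Subgroup.centralizer ((P : Subgroup G) : Set G) with hC
  have hPK : (P : Subgroup G) ≤ K := by
    intro y hy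
    rw [hK, mem_charKer]
    by_cases hy1 : y = 1
    · rw [hy1]
    · rw [hχ1]
      exact hχP ⟨y, hy⟩ (fun hh => hy1 (congrArg Subtype.val hh))
  have hKtop : K ≠ ⊤ := by
    intro htop
    apply hχne
    apply Subtype.ext
    funext g
    have : g ∈ K := by rw [htop]; exact Subgroup.mem_top g
    rw [hK, mem_charKer, hχ1] at this
    exact this
  have hKodd : ¬ 2 ∣ K.index := fun hd => P.not_dvd_index (hd.trans (Subgroup.index_dvd_of_le hPK))
  have ht1' : (t : G) ≠ 1 := fun hh => ht1 (Subtype.ext hh)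
  have htord : ∃ j : ℕ, orderOf (t : G) = 2 ^ j := by
    obtain ⟨j, hj⟩ := (IsPGroup.iff_orderOf.1 P.2) t
    exact ⟨j, by rw [← hj, ← Subgroup.orderOf_coe]⟩
  have hCK : C ≤ K := by
    intro c hc
    obtain ⟨x, hx⟩ := exists_isPPart Nat.prime_two c
    obtain ⟨n, hn, -⟩ := exists_zpow_eq_pPart Nat.prime_two hx hx (i := 1) (by norm_num)
    rw [zpow_one] at hn
    have hxC : x ∈ C := by rw [← hn]; exact Subgroup.zpow_mem _ hc n
    obtain ⟨v, hv, hcomm, ⟨j, hj⟩, hreg⟩ := hx
    have hvC : v ∈ C := by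
      have : v = x⁻¹ * c := by rw [← hv]; group
      rw [this]; exact mul_mem (inv_mem hxC) hc
    have hxK : x ∈ K := by
      apply mem_of_coprime_index K
      rw [hj]
      exact Nat.Coprime.pow_left _ ((Nat.Prime.coprime_iff_not_dvd Nat.prime_two).2 hKodd)
    have htv : Commute (t : G) v := (Subgroup.mem_centralizer_iff.1 hvC (t : G) t.2)
    have h1 := Cfsg.Agent.S0942.result 2 M hM (t : G) htord v
      (mem_centralizerPPrimeCore_of_regular P t.2 (hfrob t t.2 ht1') htv hreg) χ hχB
    have htvK : (t : G) * v ∈ K := by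
      rw [hK, mem_charKer, h1, hχ1]
      exact hχP t ht1
    have hvK : v ∈ K := by
      have : v = (t : G)⁻¹ * ((t : G) * v) := by group
      rw [this]; exact mul_mem (inv_mem (hPK t.2)) htvK
    rw [← hv]; exact mul_mem hxK hvK
  have hfrat : N ⊔ K = ⊤ := Sylow.normalizer_sup_eq_top' P hPK
  have hCNle : C ≤ N := Subgroup.centralizer_le_normalizer _
  have hNK : N ⊓ K ≤ C := by
    have h1 := Subgroup.relIndex_mul_relIndex C (N ⊓ K) N (le_inf hCNle hCK) inf_le_left
    rw [hCN] at h1
    have h2 : (N ⊓ K).relIndex N ≠ 1 := by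
      intro h3
      have h4 : N ≤ N ⊓ K := Subgroup.relIndex_eq_one.1 h3
      apply hKtop
      rw [← hfrat]
      exact (sup_eq_right.2 (h4.trans inf_le_right)).symm
    have h3 : C.relIndex (N ⊓ K) = 1 := by
      have h5 : (N ⊓ K).relIndex N ∣ 3 := Dvd.intro_left _ h1
      rcases (Nat.dvd_prime Nat.prime_three).1 h5 with h6 | h6
      · exact absurd h6 h2
      · rw [h6] at h1; omega
    exact Subgroup.relIndex_eq_one.1 h3
  -- Burnside inside `K`
  set P' : Sylow 2 K := P.subtype hPK with hP'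
  have hP'coe : (P' : Subgroup K) = (P : Subgroup G).subgroupOf K := P.coe_subtype hPK
  have hburn : Subgroup.normalizer ((P' : Subgroup K) : Set K)
      ≤ Subgroup.centralizer ((P' : Subgroup K) : Set K) := by
    intro k hk
    have h1 : (k : G) ∈ N := by
      rw [hP'coe, ← Subgroup.subgroupOf_normalizer_eq hPK, Subgroup.mem_subgroupOf] at hk
      exact hk
    have h2 : (k : G) ∈ C := hNK ⟨h1, k.2⟩
    rw [Subgroup.mem_centralizer_iff]
    intro y hy
    apply Subtype.ext
    have hy' : (y : G) ∈ (P : Subgroup G) := by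
      have : y ∈ (P' : Subgroup K) := hy
      rw [hP'coe, Subgroup.mem_subgroupOf] at this
      exact this
    exact Subgroup.mem_centralizer_iff.1 h2 (y : G) hy'
  have hcompl := MonoidHom.ker_transferSylow_isComplement' P' hburn
  set Q : Subgroup K := (MonoidHom.transferSylow P' hburn).ker with hQ
  have hQidx : Q.index = Nat.card (P' : Subgroup K) := hcompl.symm.index_eq_card
  have hQcard : Nat.card Q = (P' : Subgroup K).index := hcompl.index_eq_card.symm
  have hQodd : ¬ 2 ∣ Nat.card Q := by rw [hQcard]; exact P'.not_dvd_index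
  have hcop : Nat.Coprime (Nat.card Q) Q.index := by
    obtain ⟨n, hn⟩ := IsPGroup.iff_card.1 P'.2
    rw [hQidx, hn]
    exact Nat.Coprime.pow_right _
      (Nat.Coprime.symm ((Nat.Prime.coprime_iff_not_dvd Nat.prime_two).2 hQodd))
  have hQn : (Q.map K.subtype).Normal := normal_map_of_hall K Q hcop
  have hQbot : Q.map K.subtype = ⊥ := by
    apply hO _ hQn
    rw [Subgroup.card_map_of_injective K.subtype_injective]
    exact Nat.odd_iff.2 (by omega)
  have hQbot' : Q = ⊥ := by
    rw [Subgroup.map_eq_bot_iff_of_injective _ K.subtype_injective] at hQbot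
    exact hQbot
  have hP'top : (P' : Subgroup K) = ⊤ := by
    rw [hQbot'] at hcompl
    exact Subgroup.isComplement'_bot_left.1 hcompl
  have hKP : K = (P : Subgroup G) := by
    apply le_antisymm _ hPK
    rw [hP'coe, Subgroup.subgroupOf_eq_top] at hP'top
    exact hP'top
  have hPn : (P : Subgroup G).Normal := by rw [← hKP]; infer_instance
  have hPC : (P : Subgroup G) ≤ C := by
    intro y hy
    rw [hC, Subgroup.mem_centralizer_iff]
    intro w hw
    exact congrArg Subtype.val (hab.is_comm.comm ⟨w, hw⟩ ⟨y, hy⟩)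
  have hCP : C = (P : Subgroup G) := le_antisymm (hKP ▸ hCK) hPC
  refine ⟨hPn, hCP, ?_⟩
  have hNtop : N = ⊤ := Subgroup.normalizer_eq_top_iff.2 hPn
  rw [hNtop, hCP, Subgroup.relIndex_top_right] at hCN
  exact hCN

end Cfsg.Agent.Lib.Helper2
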