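import Cfsg.Agent.Lib.Helper2.Solvable
import Cfsg.Agent.Lib.Helper2.Hyperfocal
import Cfsg.Agent.Lib.Helper31.Nilpotent
import Cfsg.Agent.Lib.Helper28.Radical
import Cfsg.Agent.Lib.Helper30.SZ
import Cfsg.Agent.Lib.Helper1.Tools

set_option autoImplicit false

namespace Cfsg.Agent.Lib.Helper2

open Subgroup
open scoped Pointwise

/-- Carter subgroups: nilpotent and self-normalizing. -/
def IsCarter {G : Type*} [Group G] (C : Subgroup G) : Prop :=
  Group.IsNilpotent C ∧ normalizer (C : Set G) = C

open scoped commutatorElement in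
/-- Structure of a group `H` with a hom `f` to a nilpotent group whose kernel is a `p`-group. -/
theorem exists_sylow_split {H Y : Type*} [Group H] [Finite H] [Group Y] [Group.IsNilpotent Y]
    (f : H →* Y) (p : ℕ) [Fact p.Prime] (hker : IsPGroup p f.ker) :
    ∃ P Q : Subgroup H, P.Normal ∧ IsPGroup p P ∧ f.ker ≤ P ∧ (Nat.card Q).Coprime p ∧
      IsComplement' P Q ∧ ⁅P, Q⁆ ≤ f.ker ∧ Group.IsNilpotent Q := by
  have hp : p.Prime := Fact.out
  have hnr : Group.IsNilpotent f.range := inferInstance
  have hfin : Finite f.range := Finite.of_surjective _ f.rangeRestrict_surjective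
  let P0 : Sylow p f.range := default
  have hP0n : (P0 : Subgroup f.range).Normal := inferInstance
  obtain ⟨P, hPdef⟩ : ∃ P : Subgroup H, P = (P0 : Subgroup f.range).comap f.rangeRestrict :=
    ⟨_, rfl⟩
  have hPn : P.Normal := by rw [hPdef]; exact hP0n.comap _
  have hPp : IsPGroup p P := by
    rw [hPdef]
    exact P0.2.comap_of_ker_isPGroup f.rangeRestrict (by rw [MonoidHom.ker_rangeRestrict]; exact hker)
  have hkerP : f.ker ≤ P := by
    rw [hPdef, ← MonoidHom.ker_rangeRestrict]
    exact ker_le_comap _ _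
  have hidx : ¬ p ∣ P.index := by
    rw [hPdef, index_comap_of_surjective _ f.rangeRestrict_surjective]
    exact P0.not_dvd_index
  obtain ⟨k, hk⟩ := hPp.exists_card_eq
  have hcop : (Nat.card P).Coprime P.index := by
    rw [hk]
    exact Nat.Coprime.pow_left k ((Nat.Prime.coprime_iff_not_dvd hp).2 hidx)
  obtain ⟨Q, hQ⟩ := exists_right_complement'_of_coprime hcop
  have hcardQ : Nat.card Q = P.index := hQ.symm.index_eq_card.symm
  have hQp : (Nat.card Q).Coprime p := by
    rw [hcardQ]
    exact ((Nat.Prime.coprime_iff_not_dvd hp).2 hidx).symm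
  refine ⟨P, Q, hPn, hPp, hkerP, hQp, hQ, ?_, ?_⟩
  · rw [commutator_le]
    intro u hu q hq
    rw [MonoidHom.mem_ker, map_commutatorElement, commutatorElement_eq_one_iff_commute]
    apply Cfsg.Agent.Lib.Helper31.commute_of_coprime_orderOf
    obtain ⟨j, hj⟩ := (IsPGroup.iff_orderOf.mp hPp) ⟨u, hu⟩
    rw [Subgroup.orderOf_mk] at hj
    have h1 : orderOf (f u) ∣ p ^ j := hj ▸ orderOf_map_dvd f u
    have h2 : orderOf (f q) ∣ Nat.card Q := by
      refine (orderOf_map_dvd f q).trans ?_
      have := orderOf_dvd_natCard (⟨q, hq⟩ : Q)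
      rwa [Subgroup.orderOf_mk] at this
    exact Nat.Coprime.coprime_dvd_left h1
      (Nat.Coprime.coprime_dvd_right h2 (Nat.Coprime.pow_left j hQp.symm))
  · apply Subgroup.isNilpotent_of_ker_le_center (f.comp Q.subtype)
    have : (f.comp Q.subtype).ker = ⊥ := by
      rw [eq_bot_iff]
      intro x hx
      have h1 : (x : H) ∈ f.ker := hx
      have h2 : (x : H) ∈ P ⊓ Q := mem_inf.mpr ⟨hkerP h1, x.2⟩
      rw [hQ.disjoint.eq_bot, mem_bot] at h2
      rw [mem_bot]
      exact Subtype.ext h2
    rw [this]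
    exact bot_le

/-- decomposition along a complement -/
lemma IsComplement'.exists_mul {H : Type*} [Group H] {P Q : Subgroup H} (hc : IsComplement' P Q)
    (h : H) : ∃ u ∈ P, ∃ v ∈ Q, h = u * v := by
  obtain ⟨⟨u, v⟩, huv⟩ := hc.2 h
  exact ⟨u, u.2, v, v.2, huv.symm⟩

/-- If `H = P ⋊ Q` with `P` a normal `p`-group and `Q` a nilpotent `p'`-group then `N_H(Q)` is a
Carter subgroup. -/
theorem isCarter_normalizer_of_split {H : Type*} [Group H] [Finite H] (p : ℕ) [Fact p.Prime]
    (P Q : Subgroup H) [P.Normal] (hP : IsPGroup p P) (hQ : (Nat.card Q).Coprime p)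
    (hc : IsComplement' P Q) (hQn : Group.IsNilpotent Q) : IsCarter (normalizer (Q : Set H)) := by
  have hp : p.Prime := Fact.out
  obtain ⟨C, hC⟩ : ∃ C : Subgroup H, C = normalizer (Q : Set H) := ⟨_, rfl⟩
  rw [← hC]
  have hQC : Q ≤ C := hC ▸ le_normalizer
  -- elements of `P ⊓ C` commute with `Q`
  have hcomm : ∀ u ∈ P, u ∈ C → ∀ v ∈ Q, u * v = v * u := by
    intro u hu huC v hv
    have h1 : u * v * u⁻¹ * v⁻¹ ∈ P ⊓ Q := by
      refine mem_inf.mpr ⟨?_, ?_⟩
      · have : u * v * u⁻¹ * v⁻¹ = u * (v * u⁻¹ * v⁻¹) := by group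
        rw [this]
        exact P.mul_mem hu (‹P.Normal›.conj_mem _ (P.inv_mem hu) v)
      · rw [hC] at huC
        exact Q.mul_mem ((mem_normalizer_iff.mp huC v).mp hv) (Q.inv_mem hv)
    rw [hc.disjoint.eq_bot, mem_bot] at h1
    have : u * v = (u * v * u⁻¹ * v⁻¹) * (v * u) := by group
    rw [this, h1, one_mul]
  constructor
  · -- nilpotent
    have hn1 : (Q.subgroupOf C).Normal := by
      rw [hC]; exact normal_in_normalizer
    have hn2 : (P.subgroupOf C).Normal := inferInstance
    have hq : Group.IsNilpotent (Q.subgroupOf C) :=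
      Group.nilpotent_of_mulEquiv (subgroupOfEquivOfLe hQC).symm
    have hr : Group.IsNilpotent (P.subgroupOf C) := (hP.comap_subtype (K := C)).isNilpotent
    have hsup : Q.subgroupOf C ⊔ P.subgroupOf C = ⊤ := by
      rw [eq_top_iff]
      intro c _
      obtain ⟨u, hu, v, hv, huv⟩ := IsComplement'.exists_mul hc (c : H)
      have huC : u ∈ C := by
        have : u = c * v⁻¹ := by rw [huv]; group
        rw [this]
        exact C.mul_mem c.2 (C.inv_mem (hQC hv))
      have : c = (⟨u, huC⟩ : C) * ⟨v, hQC hv⟩ := Subtype.ext huv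
      rw [this]
      exact mul_mem (mem_sup_right (mem_subgroupOf.mpr hu)) (mem_sup_left (mem_subgroupOf.mpr hv))
    have := Cfsg.Agent.Lib.Helper28.isNilpotent_sup_of_normal _ _ hq hr
    rw [hsup] at this
    exact Group.isNilpotent_top.mp this
  · apply le_antisymm _ le_normalizer
    have key : ∀ y ∈ normalizer (C : Set H), ∀ q ∈ Q, y * q * y⁻¹ ∈ Q := by
      intro y hy q hq
      have hz : y * q * y⁻¹ ∈ C := (mem_normalizer_iff.mp hy q).mp (hQC hq)
      obtain ⟨u, hu, v, hv, huv⟩ := IsComplement'.exists_mul hc (y * q * y⁻¹)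
      have huC : u ∈ C := by
        have : u = (y * q * y⁻¹) * v⁻¹ := by rw [huv]; group
        rw [this]
        exact C.mul_mem hz (C.inv_mem (hQC hv))
      have hcm : Commute u v := hcomm u hu huC v hv
      have hq1 : q ^ Nat.card Q = 1 := by
        have := pow_card_eq_one' (G := Q) (x := ⟨q, hq⟩)
        exact congrArg Subtype.val this
      have hv1 : v ^ Nat.card Q = 1 := by
        have := pow_card_eq_one' (G := Q) (x := ⟨v, hv⟩)
        exact congrArg Subtype.val this
      have hz1 : (y * q * y⁻¹) ^ Nat.card Q = 1 := by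
        rw [conj_pow, hq1]; group
      rw [huv, hcm.mul_pow, hv1, mul_one] at hz1
      obtain ⟨j, hj⟩ := hP ⟨u, hu⟩
      have hj' : u ^ p ^ j = 1 := congrArg Subtype.val hj
      have hu1 : u = 1 := by
        have h1 : orderOf u ∣ Nat.card Q := orderOf_dvd_of_pow_eq_one hz1
        have h2 : orderOf u ∣ p ^ j := orderOf_dvd_of_pow_eq_one hj'
        have h3 : orderOf u = 1 := Nat.eq_one_of_dvd_coprimes (Nat.Coprime.pow_right j hQ) h1 h2
        exact orderOf_eq_one_iff.mp h3
      rw [huv, hu1, one_mul]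
      exact hv
    intro x hx
    rw [hC, mem_normalizer_iff]
    intro h
    constructor
    · exact key x hx h
    · intro hh
      have := key x⁻¹ (inv_mem hx) _ hh
      have e : x⁻¹ * (x * h * x⁻¹) * x⁻¹⁻¹ = h := by group
      rwa [e] at this

open Cfsg.Agent.Lib.Helper30 in
open scoped commutatorElement in
/-- Frattini argument: `H = N_H(Q) M`. -/
theorem normalizer_sup_eq_top_of_split {H : Type*} [Group H] [Finite H] (p : ℕ) [Fact p.Prime]
    (M : Subgroup H) [M.Normal] [IsMulCommutative M] (hM : IsPGroup p M)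
    (P Q : Subgroup H) (hQ : (Nat.card Q).Coprime p)
    (hc : IsComplement' P Q) (hPQ : ⁅P, Q⁆ ≤ M) : normalizer (Q : Set H) ⊔ M = ⊤ := by
  rw [eq_top_iff]
  intro h _
  obtain ⟨u, hu, v, hv, rfl⟩ := IsComplement'.exists_mul hc h
  obtain ⟨k, hk⟩ := hM.exists_card_eq
  have hcop : (Nat.card M).Coprime (Nat.card Q) := by
    rw [hk]; exact Nat.Coprime.pow_left k hQ.symm
  have hle : cj u Q ≤ M ⊔ Q := by
    rintro _ ⟨q, hq, rfl⟩
    have : (MulAut.conj u).toMonoidHom q = ⁅u, q⁆ * q := by
      simp [commutatorElement_def]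
    rw [this]
    exact mul_mem (mem_sup_left (hPQ (commutator_mem_commutator hu hq))) (mem_sup_right hq)
  obtain ⟨a, ha, hau⟩ := sz_conj_abelian M Q (cj u Q) hcop hle (card_cj u Q)
  have h1 : a⁻¹ * u ∈ normalizer (Q : Set H) := by
    apply mem_normalizer_of_cj_eq
    rw [cj_mul, hau, cj_inv_cj]
  have : u * v = a * (a⁻¹ * u * v) := by group
  rw [this]
  exact mul_mem (mem_sup_right ha) (mem_sup_left (mul_mem h1 (le_normalizer hv)))

/-- A self-normalizing subgroup of a nilpotent subgroup is everything. -/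
lemma eq_of_le_of_isNilpotent_of_normalizer_eq {G : Type*} [Group G] {C D : Subgroup G}
    (hCD : C ≤ D) (hD : Group.IsNilpotent D) (hC : normalizer (C : Set G) = C) : C = D := by
  by_contra hne
  have hlt : C.subgroupOf D < ⊤ := by
    rw [lt_top_iff_ne_top]
    intro h1
    rw [subgroupOf_eq_top] at h1
    exact hne (le_antisymm hCD h1)
  have h1 := Group.normalizerCondition_of_isNilpotent (G := D) _ hlt
  rw [← subgroupOf_normalizer_eq hCD, hC] at h1
  exact lt_irrefl _ h1

lemma IsCarter.conj {G : Type*} [Group G] {C : Subgroup G} (h : IsCarter C) (g : G) :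
    IsCarter (MulAut.conj g • C) := by
  constructor
  · have := h.1
    exact Group.nilpotent_of_mulEquiv (equivSMul (MulAut.conj g) C)
  · have h1 := map_normalizer_eq_of_bijective C (f := (MulAut.conj g).toMonoidHom)
      (MulAut.conj g).bijective
    rw [h.2] at h1
    exact h1.symm

lemma IsCarter.subgroupOf {G : Type*} [Group G] {C H : Subgroup G} (h : IsCarter C) (hCH : C ≤ H) :
    IsCarter (C.subgroupOf H) := by
  constructor
  · have := h.1
    exact Group.nilpotent_of_mulEquiv (subgroupOfEquivOfLe hCH).symm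
  · rw [← subgroupOf_normalizer_eq hCH, h.2]

open scoped commutatorElement in
/-- The normal `p`-complement of a nilpotent subgroup. -/
lemma exists_pcomplement_of_isNilpotent {G : Type*} [Group G] [Finite G] (p : ℕ) [Fact p.Prime]
    (C : Subgroup G) (hC : Group.IsNilpotent C) :
    ∃ Q1 : Subgroup G, Q1 ≤ C ∧ C ≤ normalizer (Q1 : Set G) ∧ (Nat.card Q1).Coprime p ∧
      ∃ k, Nat.card C = p ^ k * Nat.card Q1 := by
  have hker : IsPGroup p (MonoidHom.id C).ker := by
    have : (MonoidHom.id C).ker = ⊥ := by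
      rw [eq_bot_iff]; intro x hx; exact hx
    rw [this]; exact IsPGroup.of_bot
  obtain ⟨P, Q, hPn, hPp, -, hQp, hc, hPQ, -⟩ := exists_sylow_split (MonoidHom.id C) p hker
  have hcomm : ∀ u ∈ P, ∀ q ∈ Q, u * q * u⁻¹ = q := by
    intro u hu q hq
    have h1 : ⁅u, q⁆ = 1 := hPQ (commutator_mem_commutator hu hq)
    rw [commutatorElement_def] at h1
    have : u * q * u⁻¹ = (u * q * u⁻¹ * q⁻¹) * q := by group
    rw [this, h1, one_mul]
  have hQn : Q.Normal := by
    constructor
    intro q hq c
    obtain ⟨u, hu, v, hv, rfl⟩ := IsComplement'.exists_mul hc c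
    have : u * v * q * (u * v)⁻¹ = u * (v * q * v⁻¹) * u⁻¹ := by group
    rw [this, hcomm u hu _ (Q.mul_mem (Q.mul_mem hv hq) (Q.inv_mem hv))]
    exact Q.mul_mem (Q.mul_mem hv hq) (Q.inv_mem hv)
  refine ⟨Q.map C.subtype, map_subtype_le Q, ?_, ?_, ?_⟩
  · have h1 := le_normalizer_map (H := Q) C.subtype
    rw [normalizer_eq_top, ← MonoidHom.range_eq_map, range_subtype] at h1
    exact h1
  · rw [card_map_of_injective C.subtype_injective]; exact hQp
  · obtain ⟨k, hk⟩ := hPp.exists_card_eq
    refine ⟨k, ?_⟩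
    rw [card_map_of_injective C.subtype_injective, ← hk]
    exact hc.card_mul_card.symm

open Cfsg.Agent.Lib.Helper30 in
/-- Every Carter subgroup supplementing the normal `p`-subgroup `M` is conjugate to `N_H(Q)`. -/
theorem IsCarter.conj_normalizer_of_split {H : Type*} [Group H] [Finite H] (p : ℕ) [Fact p.Prime]
    (M : Subgroup H) [M.Normal] (hM : IsPGroup p M)
    (P Q : Subgroup H) [P.Normal] (hP : IsPGroup p P) (hQ : (Nat.card Q).Coprime p)
    (hc : IsComplement' P Q) (hQn : Group.IsNilpotent Q)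
    (C1 : Subgroup H) (h1 : IsCarter C1) (hsup : C1 ⊔ M = ⊤) :
    ∃ x : H, MulAut.conj x • C1 = normalizer (Q : Set H) := by
  have hp : p.Prime := Fact.out
  obtain ⟨Q1, hQ1C, hCQ1, hQ1p, k, hk⟩ := exists_pcomplement_of_isNilpotent p C1 h1.1
  obtain ⟨a, ha⟩ := hP.exists_card_eq
  obtain ⟨b, hb⟩ := hM.exists_card_eq
  have hidx : C1.index ∣ p ^ b := hb ▸ index_dvd_card_of_sup_eq_top hsup
  obtain ⟨c, -, hc'⟩ := (Nat.dvd_prime_pow hp).mp hidx
  have e1 : p ^ a * Nat.card Q = p ^ (c + k) * Nat.card Q1 := by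
    rw [← ha, hc.card_mul_card, ← C1.index_mul_card, hc', hk, pow_add, mul_assoc]
  have hcard : Nat.card Q1 = Nat.card Q := by
    apply Nat.dvd_antisymm
    · exact (Nat.Coprime.pow_right a hQ1p).dvd_of_dvd_mul_left (Dvd.intro_left _ e1.symm)
    · exact (Nat.Coprime.pow_right (c + k) hQ).dvd_of_dvd_mul_left (Dvd.intro_left _ e1)
  have hcop : (Nat.card P).Coprime (Nat.card Q) := by
    rw [ha]; exact Nat.Coprime.pow_left a hQ.symm
  have hPs : Group.IsSolvable P := by
    have := hP.isNilpotent
    infer_instance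
  obtain ⟨x, -, hx⟩ := sz_conj_normal P Q Q1 (Or.inl hPs) hcop
    (by rw [hc.sup_eq_top]; exact le_top) hcard
  refine ⟨x⁻¹, ?_⟩
  apply eq_of_le_of_isNilpotent_of_normalizer_eq _
    (isCarter_normalizer_of_split p P Q hP hQ hc hQn).1 (h1.conj x⁻¹).2
  have h2 := map_normalizer_eq_of_bijective Q1 (f := (MulAut.conj x⁻¹).toMonoidHom)
    (MulAut.conj x⁻¹).bijective
  have h3 : Q1.map (MulAut.conj x⁻¹).toMonoidHom = Q := by
    rw [hx]; exact cj_inv_cj x Q
  rw [h3] at h2
  rw [← h2]
  exact map_mono hCQ1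

universe u

lemma card_quotient_lt_of_ne_bot {G : Type*} [Group G] [Finite G] {N : Subgroup G}
    (hN : N ≠ ⊥) : Nat.card (G ⧸ N) < Nat.card G := by
  rw [← N.index_mul_card]
  have h1 : 1 < Nat.card N := by
    have h0 : Nat.card N ≠ 0 := Nat.card_pos.ne'
    have h1 : Nat.card N ≠ 1 := fun h1 => hN (card_eq_one.mp h1)
    omega
  have h2 : 0 < N.index := Nat.pos_of_ne_zero index_ne_zero_of_finite
  change N.index < _
  nlinarith

lemma card_lt_of_ne_top {G : Type*} [Group G] [Finite G] {H : Subgroup G}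
    (hH : H ≠ ⊤) : Nat.card H < Nat.card G :=
  lt_of_le_of_ne (card_le_card_group H) (fun h => hH (eq_top_of_card_eq H h))

theorem exists_isCarter_aux (n : ℕ) : ∀ (G : Type u) [Group G] [Finite G] [Group.IsSolvable G],
    Nat.card G = n → ∃ C : Subgroup G, IsCarter C := by
  induction n using Nat.strong_induction_on with
  | _ n ih =>
    intro G _ _ _ hn
    rcases subsingleton_or_nontrivial G with hs | hnt
    · refine ⟨⊤, ?_, ?_⟩
      · infer_instance
      · exact normalizer_eq_top _
    · obtain ⟨p, N, hp, hNc, hNne, hNp, hNcomm⟩ :=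
        exists_characteristic_pgroup_of_solvable (G := G)
      have : Fact p.Prime := ⟨hp⟩
      have hNn : N.Normal := inferInstance
      have hlt : Nat.card (G ⧸ N) < n := hn ▸ card_quotient_lt_of_ne_bot hNne
      obtain ⟨Hb, hHb⟩ := ih _ hlt (G ⧸ N) rfl
      have hHbn := hHb.1
      set Hs : Subgroup G := Hb.comap (QuotientGroup.mk' N) with hHs
      have hNHs : N ≤ Hs := by
        conv_lhs => rw [← QuotientGroup.ker_mk' N]
        exact ker_le_comap _ _
      let f : Hs →* Hb := (QuotientGroup.mk' N).subgroupComap Hb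
      have hker : f.ker = N.subgroupOf Hs := by
        ext x
        rw [MonoidHom.mem_ker, mem_subgroupOf, ← QuotientGroup.eq_one_iff]
        constructor
        · intro h; exact congrArg Subtype.val h
        · intro h; exact Subtype.ext h
      have hMp : IsPGroup p (N.subgroupOf Hs) := hNp.comap_subtype
      have hMc : IsMulCommutative (N.subgroupOf Hs) := inferInstance
      obtain ⟨P, Q, hPn, hPp, -, hQp, hc, hPQ, hQn⟩ := exists_sylow_split f p (hker ▸ hMp)
      rw [hker] at hPQ
      have hC' := isCarter_normalizer_of_split p P Q hPp hQp hc hQn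
      have hsup := normalizer_sup_eq_top_of_split p (N.subgroupOf Hs) hMp P Q hQp hc hPQ
      obtain ⟨C', hC'def⟩ : ∃ C' : Subgroup Hs, C' = normalizer (Q : Set Hs) := ⟨_, rfl⟩
      rw [← hC'def] at hC' hsup
      refine ⟨C'.map Hs.subtype, ?_, ?_⟩
      · have := hC'.1
        exact Group.nilpotent_of_mulEquiv (C'.equivMapOfInjective Hs.subtype Hs.subtype_injective)
      · apply le_antisymm _ le_normalizer
        have hCN : C'.map Hs.subtype ⊔ N = Hs := by
          have h1 : (N.subgroupOf Hs).map Hs.subtype = N := map_subgroupOf_eq_of_le hNHs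
          conv_lhs => rw [← h1]
          rw [← Subgroup.map_sup, hsup, ← MonoidHom.range_eq_map, range_subtype]
        have hnorm : normalizer ((C'.map Hs.subtype : Subgroup G) : Set G) ≤
            normalizer (Hs : Set G) := by
          have := le_normalizer_sup (H := normalizer ((C'.map Hs.subtype : Subgroup G) : Set G))
            (A := C'.map Hs.subtype) (B := N) le_rfl
            (by rw [normalizer_eq_top N]; exact le_top)
          rwa [hCN] at this
        intro x hx
        have hxHs : x ∈ Hs := by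
          have h1 : QuotientGroup.mk' N x ∈ (normalizer (Hs : Set G)).map (QuotientGroup.mk' N) :=
            mem_map_of_mem _ (hnorm hx)
          have h2 := le_normalizer_map (QuotientGroup.mk' N) h1
          rw [hHs, map_comap_eq_self_of_surjective (QuotientGroup.mk'_surjective N), hHb.2] at h2
          exact h2
        have hle : C'.map Hs.subtype ≤ Hs := map_subtype_le C'
        have h3 : (⟨x, hxHs⟩ : Hs) ∈
            (normalizer ((C'.map Hs.subtype : Subgroup G) : Set G)).subgroupOf Hs := hx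
        rw [subgroupOf_normalizer_eq hle] at h3
        have h4 : (C'.map Hs.subtype).subgroupOf Hs = C' :=
          comap_map_eq_self_of_injective Hs.subtype_injective C'
        rw [h4, hC'.2] at h3
        exact ⟨⟨x, hxHs⟩, h3, rfl⟩

lemma map_mk'_sup_self {G : Type*} [Group G] (C N : Subgroup G) [N.Normal] :
    (C ⊔ N).map (QuotientGroup.mk' N) = C.map (QuotientGroup.mk' N) := by
  rw [Subgroup.map_sup, QuotientGroup.map_mk'_self, sup_bot_eq]

open Cfsg.Agent.Lib.Helper30 in
theorem isCarter_conj_aux (n : ℕ) : ∀ (G : Type u) [Group G] [Finite G] [Group.IsSolvable G],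
    Nat.card G = n → ∀ C1 C2 : Subgroup G, IsCarter C1 → IsCarter C2 →
      ∃ g : G, MulAut.conj g • C1 = C2 := by
  induction n using Nat.strong_induction_on with
  | _ n ih =>
    intro G _ _ _ hn C1 C2 h1 h2
    rcases subsingleton_or_nontrivial G with hs | hnt
    · exact ⟨1, Subsingleton.elim _ _⟩
    · obtain ⟨p, N, hp, hNc, hNne, hNp, hNcomm⟩ :=
        exists_characteristic_pgroup_of_solvable (G := G)
      have : Fact p.Prime := ⟨hp⟩
      have hNn : N.Normal := inferInstance
      have hlt : Nat.card (G ⧸ N) < n := hn ▸ card_quotient_lt_of_ne_bot hNne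
      have hsub : ∀ H : Subgroup G, H ≠ ⊤ → ∀ D1 D2 : Subgroup G, D1 ≤ H → D2 ≤ H →
          IsCarter D1 → IsCarter D2 → ∃ g ∈ H, MulAut.conj g • D1 = D2 := by
        intro H hH D1 D2 hD1 hD2 c1 c2
        apply Cfsg.Agent.Lib.Helper1.conj_of_conj_subgroupOf hD1 hD2
        exact ih _ (hn ▸ card_lt_of_ne_top hH) H rfl _ _ (c1.subgroupOf hD1) (c2.subgroupOf hD2)
      have himg : ∀ C : Subgroup G, IsCarter C → IsCarter (C.map (QuotientGroup.mk' N)) := by
        intro C hC
        constructor
        · have := hC.1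
          exact Group.nilpotent_of_surjective ((QuotientGroup.mk' N).subgroupMap C)
            ((QuotientGroup.mk' N).subgroupMap_surjective C)
        · apply le_antisymm _ le_normalizer
          intro y hy
          obtain ⟨x, rfl⟩ := QuotientGroup.mk'_surjective N y
          rw [← map_mk'_sup_self]
          apply mem_map_of_mem
          by_cases hH : C ⊔ N = ⊤
          · rw [hH]; trivial
          · have hx : x ∈ normalizer ((C ⊔ N : Subgroup G) : Set G) := by
              have e1 := comap_normalizer_eq_of_surjective (C.map (QuotientGroup.mk' N))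
                (QuotientGroup.mk'_surjective N)
              rw [comap_map_eq, QuotientGroup.ker_mk'] at e1
              rw [← e1]
              exact hy
            have hxC : MulAut.conj x • C ≤ C ⊔ N := by
              have e2 : cj x (C ⊔ N) = C ⊔ N := cj_eq_of_mem_normalizer hx
              calc MulAut.conj x • C = cj x C := rfl
                _ ≤ cj x (C ⊔ N) := cj_mono x le_sup_left
                _ = C ⊔ N := e2
            obtain ⟨h, hh, hhC⟩ := hsub (C ⊔ N) hH C (MulAut.conj x • C) le_sup_left hxC hC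
              (hC.conj x)
            have h3 : h⁻¹ * x ∈ C := by
              have h4 : h⁻¹ * x ∈ normalizer (C : Set G) := by
                apply mem_normalizer_of_cj_eq
                have e3 : cj x C = cj h C := hhC.symm
                rw [cj_mul, e3, cj_inv_cj]
              rwa [hC.2] at h4
            have : x = h * (h⁻¹ * x) := by group
            rw [this]
            exact mul_mem hh (mem_sup_left h3)
      obtain ⟨gb, hgb⟩ := ih _ hlt (G ⧸ N) rfl _ _ (himg C1 h1) (himg C2 h2)
      obtain ⟨g, rfl⟩ := QuotientGroup.mk'_surjective N gb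
      rw [← Cfsg.Agent.Lib.Helper1.map_conj_smul] at hgb
      have hD : IsCarter (MulAut.conj g • C1) := h1.conj g
      obtain ⟨D, hDdef⟩ : ∃ D : Subgroup G, D = MulAut.conj g • C1 := ⟨_, rfl⟩
      rw [← hDdef] at hgb hD
      have hsupeq : D ⊔ N = C2 ⊔ N := by
        have := congrArg (comap (QuotientGroup.mk' N)) hgb
        rwa [comap_map_eq, comap_map_eq, QuotientGroup.ker_mk'] at this
      suffices hsuff : ∃ g' : G, MulAut.conj g' • D = C2 by
        obtain ⟨g', hg'⟩ := hsuff
        exact ⟨g' * g, by rw [map_mul, mul_smul, ← hDdef]; exact hg'⟩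
      by_cases hH : C2 ⊔ N = ⊤
      · have hnilq : Group.IsNilpotent (G ⧸ N) := by
          have h3 := (himg C2 h2).1
          rw [← map_mk'_sup_self, hH, map_top_of_surjective _ (QuotientGroup.mk'_surjective N)] at h3
          exact Group.isNilpotent_top.mp h3
        obtain ⟨P, Q, hPn, hPp, -, hQp, hc, -, hQn⟩ := exists_sylow_split (QuotientGroup.mk' N) p
          (by rw [QuotientGroup.ker_mk']; exact hNp)
        obtain ⟨x, hx⟩ := IsCarter.conj_normalizer_of_split p N hNp P Q hPp hQp hc hQn D hD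
          (hsupeq ▸ hH)
        obtain ⟨y, hy⟩ := IsCarter.conj_normalizer_of_split p N hNp P Q hPp hQp hc hQn C2 h2 hH
        exact ⟨y⁻¹ * x, by rw [map_mul, mul_smul, hx, ← hy, map_inv, inv_smul_smul]⟩
      · obtain ⟨g', -, hg'⟩ := hsub (C2 ⊔ N) hH D C2 (hsupeq ▸ le_sup_left) le_sup_left hD h2
        exact ⟨g', hg'⟩

/-- **Carter's theorem**. -/
theorem exists_isCarter (G : Type*) [Group G] [Finite G] [Group.IsSolvable G] :
    ∃ C : Subgroup G, IsCarter C := exists_isCarter_aux _ G rfl

theorem IsCarter.exists_conj {G : Type*} [Group G] [Finite G] [Group.IsSolvable G]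
    {C1 C2 : Subgroup G} (h1 : IsCarter C1) (h2 : IsCarter C2) :
    ∃ g : G, MulAut.conj g • C1 = C2 := isCarter_conj_aux _ G rfl C1 C2 h1 h2

/-- Images of Carter subgroups in quotients are Carter subgroups. -/
theorem IsCarter.map_mk' {G : Type*} [Group G] [Finite G] [Group.IsSolvable G]
    {C : Subgroup G} (hC : IsCarter C) (N : Subgroup G) [N.Normal] :
    IsCarter (C.map (QuotientGroup.mk' N)) := by
  constructor
  · have := hC.1
    exact Group.nilpotent_of_surjective ((QuotientGroup.mk' N).subgroupMap C)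
      ((QuotientGroup.mk' N).subgroupMap_surjective C)
  · apply le_antisymm _ le_normalizer
    intro y hy
    obtain ⟨x, rfl⟩ := QuotientGroup.mk'_surjective N y
    rw [← map_mk'_sup_self]
    apply mem_map_of_mem
    have hx : x ∈ normalizer ((C ⊔ N : Subgroup G) : Set G) := by
      have e1 := comap_normalizer_eq_of_surjective (C.map (QuotientGroup.mk' N))
        (QuotientGroup.mk'_surjective N)
      rw [comap_map_eq, QuotientGroup.ker_mk'] at e1
      rw [← e1]
      exact hy
    have hxC : MulAut.conj x • C ≤ C ⊔ N := by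
      have e2 : Cfsg.Agent.Lib.Helper30.cj x (C ⊔ N) = C ⊔ N :=
        Cfsg.Agent.Lib.Helper30.cj_eq_of_mem_normalizer hx
      calc MulAut.conj x • C = Cfsg.Agent.Lib.Helper30.cj x C := rfl
        _ ≤ Cfsg.Agent.Lib.Helper30.cj x (C ⊔ N) := Cfsg.Agent.Lib.Helper30.cj_mono x le_sup_left
        _ = C ⊔ N := e2
    obtain ⟨h, hh, hhC⟩ := Cfsg.Agent.Lib.Helper1.conj_of_conj_subgroupOf
      (le_sup_left : C ≤ C ⊔ N) hxC
      ((hC.subgroupOf le_sup_left).exists_conj ((hC.conj x).subgroupOf hxC))
    have h3 : h⁻¹ * x ∈ C := by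
      have h4 : h⁻¹ * x ∈ normalizer (C : Set G) := by
        apply Cfsg.Agent.Lib.Helper30.mem_normalizer_of_cj_eq
        have e3 : Cfsg.Agent.Lib.Helper30.cj x C = Cfsg.Agent.Lib.Helper30.cj h C := hhC.symm
        rw [Cfsg.Agent.Lib.Helper30.cj_mul, e3, Cfsg.Agent.Lib.Helper30.cj_inv_cj]
      rwa [hC.2] at h4
    have : x = h * (h⁻¹ * x) := by group
    rw [this]
    exact mul_mem hh (mem_sup_left h3)

end Cfsg.Agent.Lib.Helper2
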