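import Cfsg.Agent.Lib.Helper2.Gaschutz
import Mathlib.Algebra.Group.Subgroup.Pointwise

set_option autoImplicit false

namespace Cfsg.Agent.Lib.Helper2

open Subgroup
open scoped IsMulCommutative Pointwise

variable {G : Type*} [Group G] (K : Subgroup G) [K.Normal]

/-- The crossed homomorphism attached to a complement. -/
lemma exists_crossed_of_complement [IsMulCommutative K] (H : Subgroup G)
    (hc : IsComplement' K H) :
    ∃ φ : G → K, (∀ g g', φ (g * g') = φ g * cj K g (φ g')) ∧ (∀ (k : K) (h : G), h ∈ H →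
      φ (k * h) = k) := by
  obtain ⟨ψ, hψ⟩ := exists_kpart K H (by rw [inf_comm]; exact hc.disjoint.eq_bot)
  have hdec : ∀ u : G, ∃ (k : K), ∃ a ∈ H, u = k * a := by
    intro u
    have hu : u ∈ (K ⊔ H : Subgroup G) := by rw [hc.sup_eq_top]; trivial
    rw [← SetLike.mem_coe, normal_mul] at hu
    obtain ⟨k, hk, a, ha, rfl⟩ := hu
    exact ⟨⟨k, hk⟩, a, ha, rfl⟩
  refine ⟨ψ, ?_, hψ⟩
  intro g g'
  obtain ⟨k, h, hh, rfl⟩ := hdec g
  obtain ⟨k', h', hh', rfl⟩ := hdec g'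
  have e : (k : G) * h * (k' * h') = ((k * cj K h k' : K) : G) * (h * h') := by
    rw [coe_mul, cj_coe]; group
  rw [e, hψ _ _ (mul_mem hh hh'), hψ _ _ hh, hψ _ _ hh', cj_mul, cj_of_mem]

/-- **Gaschütz's theorem**, conjugacy. -/
theorem gaschutz_conj [Finite G] [IsMulCommutative K] (U : Subgroup G) (hKU : K ≤ U)
    (hcop : (Nat.card K).Coprime U.index) (H₀ H₁ : Subgroup G) (h₀ : IsComplement' K H₀)
    (h₁ : IsComplement' K H₁) (hU : H₀ ⊓ U = H₁ ⊓ U) : ∃ g : G, MulAut.conj g • H₀ = H₁ := by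
  classical
  obtain ⟨φ0, c0, p0⟩ := exists_crossed_of_complement K H₀ h₀
  obtain ⟨φ1, c1, p1⟩ := exists_crossed_of_complement K H₁ h₁
  have hdec0 : ∀ u : G, ∃ (k : K), ∃ a ∈ H₀, u = k * a := by
    intro u
    have hu : u ∈ (K ⊔ H₀ : Subgroup G) := by rw [h₀.sup_eq_top]; trivial
    rw [← SetLike.mem_coe, normal_mul] at hu
    obtain ⟨k, hk, a, ha, rfl⟩ := hu
    exact ⟨⟨k, hk⟩, a, ha, rfl⟩
  obtain ⟨δ, hδ⟩ : ∃ δ : G → K, ∀ g, δ g = φ1 g * (φ0 g)⁻¹ := ⟨_, fun _ => rfl⟩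
  have δmul : ∀ g g', δ (g * g') = δ g * cj K g (δ g') := by
    intro g g'
    rw [hδ, hδ, hδ, c0, c1, map_mul, map_inv, mul_inv]
    have hc : ∀ a b c d : K, a * b * (c⁻¹ * d⁻¹) = a * c⁻¹ * (b * d⁻¹) := by
      intro a b c d
      rw [mul_mul_mul_comm]
    exact hc _ _ _ _
  have δU : ∀ u ∈ U, δ u = 1 := by
    intro u hu
    obtain ⟨k, h, hh, rfl⟩ := hdec0 u
    have hhU : h ∈ U := by
      have : h = (k : G)⁻¹ * (k * h) := by group
      rw [this]
      exact mul_mem (inv_mem (hKU k.2)) hu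
    have hh1 : h ∈ H₁ := by
      have : h ∈ H₀ ⊓ U := mem_inf.mpr ⟨hh, hhU⟩
      rw [hU] at this
      exact this.1
    rw [hδ, p0 k h hh, p1 k h hh1, mul_inv_cancel]
  have δinv : ∀ g u, u ∈ U → δ (g * u) = δ g := by
    intro g u hu
    rw [δmul, δU u hu, map_one, mul_one]
  have δout : ∀ x : G, δ (x : G ⧸ U).out = δ x := by
    intro x
    obtain ⟨u, hu⟩ := QuotientGroup.mk_out_eq_mul U x
    rw [hu, δinv x u u.2]
  have : Fintype (G ⧸ U) := Fintype.ofFinite _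
  obtain ⟨k1, hk1⟩ : ∃ k1 : K, k1 = ∏ q : G ⧸ U, δ q.out := ⟨_, rfl⟩
  have key : ∀ g, δ g ^ U.index = k1 * (cj K g k1)⁻¹ := by
    intro g
    have e1 : ∏ q : G ⧸ U, δ (g * q.out) = k1 := by
      rw [hk1]
      refine Fintype.prod_equiv (MulAction.toPerm g) _ _ (fun q => ?_)
      rw [← δout (g * q.out)]
      congr 2
      change ((g * q.out : G) : G ⧸ U) = g • q
      conv_rhs => rw [← QuotientGroup.out_eq' q]
      rfl
    have e2 : ∏ q : G ⧸ U, δ (g * q.out) = δ g ^ U.index * cj K g k1 := by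
      simp only [δmul]
      rw [Finset.prod_mul_distrib, Finset.prod_const, Finset.card_univ, hk1, map_prod, index,
        Nat.card_eq_fintype_card]
    have e3 := e1.symm.trans e2
    rw [eq_mul_inv_iff_mul_eq]
    exact e3.symm
  obtain ⟨a, ha⟩ := exists_zpow_inverse (K := K) hcop
  obtain ⟨k0, hk0⟩ : ∃ k0 : K, k0 = k1 ^ a := ⟨_, rfl⟩
  have key2 : ∀ g, δ g = k0 * (cj K g k0)⁻¹ := by
    intro g
    rw [← ha (δ g), key, mul_zpow, inv_zpow, ← map_zpow, hk0]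
  refine ⟨(k0 : G)⁻¹, ?_⟩
  have p1' : ∀ g, φ1 g = 1 → g ∈ H₁ := by
    intro g hg
    have hu : g ∈ (K ⊔ H₁ : Subgroup G) := by rw [h₁.sup_eq_top]; trivial
    rw [← SetLike.mem_coe, normal_mul] at hu
    obtain ⟨k, hk, a, ha, e⟩ := hu
    have e' : k * a = g := e
    have := p1 ⟨k, hk⟩ a ha
    simp only at this
    rw [e', hg] at this
    have hk1 : k = 1 := (congrArg Subtype.val this).symm
    rw [← e', hk1, one_mul]; exact ha
  have hle : MulAut.conj (k0 : G)⁻¹ • H₀ ≤ H₁ := by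
    intro x hx
    obtain ⟨h, hh, rfl⟩ := (mem_smul_pointwise_iff_exists _ _ _).mp hx
    apply p1'
    have e : MulAut.conj (k0 : G)⁻¹ • h = ((k0⁻¹ : K) : G) * (h * (k0 : G)) := by
      rw [MulAut.smul_def, MulAut.conj_apply, inv_inv, coe_inv, mul_assoc]
    rw [e, c1, c1]
    have q1 : φ1 ((k0⁻¹ : K) : G) = k0⁻¹ := by
      have := p1 k0⁻¹ 1 (one_mem _)
      rwa [mul_one] at this
    have q2 : φ1 (k0 : G) = k0 := by
      have := p1 k0 1 (one_mem _)
      rwa [mul_one] at this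
    have q3 : φ0 h = 1 := by
      have := p0 1 h hh
      rwa [coe_one, one_mul] at this
    have q4 : φ1 h = k0 * (cj K h k0)⁻¹ := by
      have := hδ h
      rw [q3, inv_one, mul_one] at this
      rw [← this, key2]
    rw [q1, q2, q4, cj_of_mem, inv_mul_cancel_right, inv_mul_cancel]
  apply eq_of_le_of_card_ge hle
  have e1 : Nat.card H₁ = K.index := h₁.symm.index_eq_card.symm
  have e0 : Nat.card H₀ = K.index := h₀.symm.index_eq_card.symm
  have e2 : Nat.card (MulAut.conj (k0 : G)⁻¹ • H₀ : Subgroup G) = Nat.card H₀ :=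
    Nat.card_congr (equivSMul (MulAut.conj (k0 : G)⁻¹) H₀).toEquiv.symm
  rw [e1, e2, e0]

end Cfsg.Agent.Lib.Helper2
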