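import Mathlib.GroupTheory.Sylow
import Mathlib.GroupTheory.PGroup
import Mathlib.GroupTheory.Perm.Cycle.Type
import Mathlib.GroupTheory.Subgroup.Centralizer
import Mathlib.Tactic.Group

set_option autoImplicit false

namespace Cfsg.Agent.Lib.Helper2

open Subgroup

/-- An automorphism of prime order `r` of a group of order `p ^ 2`: `r` divides `p^2-1` or
`p^2-p`. -/
lemma prime_orderOf_mulAut_card_sq {P : Type*} [Group P] [Finite P] {p r : ℕ} (hp : p.Prime)
    (hr : r.Prime) (hcard : Nat.card P = p ^ 2) (α : MulAut P) (hα : orderOf α = r) :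
    r ∣ p ^ 2 - 1 ∨ r ∣ p ^ 2 - p := by
  have : Fact r.Prime := ⟨hr⟩
  have hZ : IsPGroup r (zpowers α) := by
    apply IsPGroup.of_card (n := 1)
    rw [Nat.card_zpowers, hα, pow_one]
  have hmod := hZ.card_modEq_card_fixedPoints P
  let F : Subgroup P :=
    { carrier := {x | α x = x}
      mul_mem' := by
        intro a b ha hb
        simp only [Set.mem_ofPred_eq] at *
        rw [map_mul, ha, hb]
      one_mem' := map_one α
      inv_mem' := by
        intro a ha
        simp only [Set.mem_ofPred_eq] at *
        rw [map_inv, ha] }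
  have hF : (MulAction.fixedPoints (zpowers α) P) = (F : Set P) := by
    ext x
    constructor
    · intro hx
      exact hx ⟨α, mem_zpowers α⟩
    · intro hx
      rintro ⟨β, hβ⟩
      obtain ⟨k, rfl⟩ := mem_zpowers_iff.mp hβ
      change (α ^ k) x = x
      have hx' : α x = x := hx
      have hstab : α ∈ MulAction.stabilizer (MulAut P) x := hx'
      exact (MulAction.stabilizer (MulAut P) x).zpow_mem hstab k
  have hcardF : Nat.card (MulAction.fixedPoints (zpowers α) P) = Nat.card F := by
    rw [hF]; rfl
  rw [hcardF, hcard] at hmod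
  have hdvd : Nat.card F ∣ p ^ 2 := hcard ▸ F.card_subgroup_dvd_card
  obtain ⟨j, hj, hFj⟩ := (Nat.dvd_prime_pow hp).mp hdvd
  have hle : Nat.card F ≤ p ^ 2 := Nat.le_of_dvd (pow_pos hp.pos 2) hdvd
  have hdiv : r ∣ p ^ 2 - Nat.card F := (Nat.modEq_iff_dvd' hle).mp hmod.symm
  interval_cases j
  · left; simpa [hFj] using hdiv
  · right; simpa [hFj] using hdiv
  · exfalso
    have hFtop : F = ⊤ := by
      apply Subgroup.eq_top_of_card_eq
      rw [hFj, hcard]
    have : α = 1 := by
      ext x
      have : x ∈ F := by rw [hFtop]; trivial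
      exact this
    rw [this, orderOf_one] at hα
    exact hr.one_lt.ne hα

variable {G : Type*} [Group G]

/-- If an abelian Sylow `p`-subgroup `P` of order `p ^ 2` is not central in its normalizer, some
prime `r ≠ p` dividing `|G|` divides `p^2-1` or `p^2-p`. -/
lemma normalizer_le_centralizer_or_exists_prime [Finite G] {p : ℕ} [Fact p.Prime] (P : Sylow p G)
    (hP : IsMulCommutative P) (hcard : Nat.card P = p ^ 2) :
    normalizer (P : Set G) ≤ centralizer (P : Set G) ∨
      ∃ r : ℕ, r.Prime ∧ r ∣ Nat.card G ∧ r ≠ p ∧ (r ∣ p ^ 2 - 1 ∨ r ∣ p ^ 2 - p) := by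
  have hp : p.Prime := Fact.out
  set φ := (P : Subgroup G).normalizerMonoidHom with hφ
  by_cases h1 : Nat.card φ.range = 1
  · left
    have hker : φ.ker = ⊤ := by
      rw [← index_eq_one, index_ker, h1]
    rw [normalizerMonoidHom_ker, subgroupOf_eq_top] at hker
    exact hker
  · right
    set r := (Nat.card φ.range).minFac with hr
    have hrp : r.Prime := Nat.minFac_prime h1
    have hrd : r ∣ Nat.card φ.range := Nat.minFac_dvd _
    have hidx : Nat.card φ.range = (centralizer (P : Set G)).relIndex (normalizer (P : Set G)) := by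
      rw [← index_ker, normalizerMonoidHom_ker]
      rfl
    have hPC : (P : Subgroup G) ≤ centralizer (P : Set G) :=
      le_centralizer_iff_isMulCommutative.mpr hP
    have hd1 : Nat.card φ.range ∣ (P : Subgroup G).index := by
      rw [hidx]
      exact (relIndex_dvd_of_le_left _ hPC).trans (relIndex_dvd_index_of_le le_normalizer)
    have : Fact r.Prime := ⟨hrp⟩
    obtain ⟨⟨α, hαr⟩, hα⟩ := exists_prime_orderOf_dvd_card' (G := φ.range) r hrd
    have hα' : orderOf α = r := by rwa [← Subgroup.orderOf_coe] at hα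
    refine ⟨r, hrp, ?_, ?_, prime_orderOf_mulAut_card_sq hp hrp hcard α hα'⟩
    · exact (hrd.trans hd1).trans (index_dvd_card _)
    · intro h
      have h2 : r ∣ (P : Subgroup G).index := hrd.trans hd1
      rw [h] at h2
      exact P.not_dvd_index h2

end Cfsg.Agent.Lib.Helper2
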