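import Cfsg.Agent.Lib.Helper45.StW4

/-! LADDER W2 (S2400, case B2(3)), rung CLL -/

set_option autoImplicit false

namespace Cfsg.Agent.Lib.Helper45.StW

open Cfsg.Lie Matrix Cfsg.Agent.Lib.Helper22 Cfsg.Agent.Lib.Helper23 Cfsg.Agent.Lib.Helper45
  Cfsg.Agent.Lib.Helper23.StP Cfsg.Agent.Lib.Helper45.StV

/-- the table facts for two orthogonal long roots -/
def CllTab (r r' p q : ℕ) (N : ℤ) : Prop :=
  p ∈ S2 ∧ q ∈ S2 ∧ (N = 2 ∨ N = -2) ∧ chevB2.commTerms p q = [(r', N, 1, 1)] ∧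
    chevB2.commTerms r p = [] ∧ chevB2.commTerms r' p = [] ∧
    (∀ c ∈ chevB2.commTerms r q, c.1 ∈ [p, r']) ∧
    r < chevB2.nroots ∧ r' < chevB2.nroots ∧ p < chevB2.nroots ∧ q < chevB2.nroots ∧
    p ≠ r ∧ p ≠ chevB2.neg r ∧ q ≠ r ∧ q ≠ chevB2.neg r ∧ p ≠ r' ∧ p ≠ chevB2.neg r'

instance (r r' p q : ℕ) (N : ℤ) : Decidable (CllTab r r' p q N) := by
  unfold CllTab
  infer_instance

theorem cll_tab {r r' : ℕ} (hr : r ∈ L2) (hr' : r' ∈ L2) (h1 : r' ≠ r) (h2 : r' ≠ chevB2.neg r) :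
    ∃ (p q : ℕ) (N : ℤ), CllTab r r' p q N := by
  simp only [L2, List.mem_cons, List.not_mem_nil, or_false] at hr hr'
  rcases hr with rfl | rfl | rfl | rfl <;> rcases hr' with rfl | rfl | rfl | rfl
  · exact absurd rfl h1
  · exact ⟨1, 5, -2, by decide +kernel⟩
  · exact ⟨2, 6, -2, by decide +kernel⟩
  · exact absurd (by decide +kernel) h2
  · exact ⟨1, 2, 2, by decide +kernel⟩
  · exact absurd rfl h1
  · exact absurd (by decide +kernel) h2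
  · exact ⟨5, 6, 2, by decide +kernel⟩
  · exact ⟨2, 1, -2, by decide +kernel⟩
  · exact absurd (by decide +kernel) h2
  · exact absurd rfl h1
  · exact ⟨6, 5, -2, by decide +kernel⟩
  · exact absurd (by decide +kernel) h2
  · exact ⟨5, 1, 2, by decide +kernel⟩
  · exact ⟨6, 2, 2, by decide +kernel⟩
  · exact absurd rfl h1

variable {K : Type*} [Field K] {hA : AddFact chevB2 K} {E : Type*} [Group E]

section partZ
variable (Z : CZ chevB2 K hA E) (hS : HS hA) (hH : HB Z) (h20 : (2 : K) ≠ 0)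
include hS hH h20

/-- [CLL] -/
theorem b3_ll {r r' : ℕ} (hr : r ∈ L2) (hr' : r' ∈ L2) (h1 : r' ≠ r) (h2 : r' ≠ chevB2.neg r) (t u : K) :
    Z.Z r t * Z.Z r' u = Z.Z r' u * Z.Z r t := by
  obtain ⟨p, q, N, hp, hq, hN, hT, h0, h0', hW, hrlt, hrlt', hplt, hqlt, hpr, hpnr, hqr, hqnr,
    hpr', hpnr'⟩ := cll_tab hr hr' h1 h2
  have hNK : (N : K) ≠ 0 := by
    rcases hN with rfl | rfl
    · simpa using h20
    · simpa using h20
  obtain ⟨P, hP⟩ : ∃ P, P = Z.Z p (-((N : K)⁻¹ * u)) := ⟨_, rfl⟩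
  obtain ⟨Q, hQ⟩ : ∃ Q, Q = Z.Z q 1 := ⟨_, rfl⟩
  obtain ⟨y, hy⟩ : ∃ y, y = Z.Z r t := ⟨_, rfl⟩
  obtain ⟨W, hWdef⟩ : ∃ W, W = WW Z.Z (chevB2.commWord K r q (-t) 1) := ⟨_, rfl⟩
  have e1 : Z.Z r' u = Q⁻¹ * P⁻¹ * Q * P := by
    rw [hP, hQ, hH p hp q hq r' N hT]
    congr 1
    rw [neg_neg, mul_one, mul_inv_cancel_left₀ hNK]
  have c1 : y * P = P * y := by
    rw [hy, hP]
    exact Z.comm_of_sep memB2 (hS r hr p hp) hrlt hplt hpr hpnr h0 _ _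
  have e2 : Z.ρ (y * Q * y⁻¹) = Z.ρ (Q * W) := by
    rw [hy, hQ, hWdef, map_mul, map_mul, map_inv, map_mul, Z.rho_Z, Z.rho_Z, Z.rho_WW memB2,
      CExt.conj_eq_G memB2 hrlt hqlt hqr hqnr]
  have hWm : W ∈ Cl Z.Z [p, r'] := by
    rw [hWdef]
    apply WW_mem_Cl
    intro x hx
    obtain ⟨c, hc, e⟩ := StSys.mem_commWord hx
    rw [e]
    exact hW c hc
  have hcent : ∀ x : E, (∀ s, Z.Z p s * x = x * Z.Z p s) → (∀ s, Z.Z r' s * x = x * Z.Z r' s) →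
      W * x = x * W := by
    intro x hx1 hx2
    have hle : Cl Z.Z [p, r'] ≤ Subgroup.centralizer {x} := by
      unfold Cl
      rw [Subgroup.closure_le]
      rintro g ⟨c, hc, s, rfl⟩
      rw [SetLike.mem_coe, Subgroup.mem_centralizer_singleton_iff]
      simp only [List.mem_cons, List.not_mem_nil, or_false] at hc
      rcases hc with rfl | rfl
      · exact hx1 s
      · exact hx2 s
    exact Subgroup.mem_centralizer_singleton_iff.1 (hle hWm)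
  have hsame : ∀ (a : ℕ) (s s' : K), Z.Z a s * Z.Z a s' = Z.Z a s' * Z.Z a s := by
    intro a s s'
    rw [← Z.Z_add, add_comm, Z.Z_add]
  have hrp : ∀ s s' : K, Z.Z r' s * Z.Z p s' = Z.Z p s' * Z.Z r' s := fun s s' =>
    Z.comm_of_sep memB2 (hS r' hr' p hp) hrlt' hplt hpr' hpnr' h0' s s'
  have cWP : W * P = P * W := by
    apply hcent
    · intro s; rw [hP]; exact hsame p _ _
    · intro s; rw [hP]; exact hrp _ _
  have cWR : W * Z.Z r' u = Z.Z r' u * W := by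
    apply hcent
    · intro s; exact (hrp _ _).symm
    · intro s; exact hsame r' _ _
  have hyP : y * P * y⁻¹ = P := by rw [c1, mul_inv_cancel_right]
  have key : y * Z.Z r' u * y⁻¹ = Z.Z r' u := by
    calc y * Z.Z r' u * y⁻¹ = y * (Q⁻¹ * P⁻¹ * Q * P) * y⁻¹ := by rw [e1]
      _ = (y * Q * y⁻¹)⁻¹ * (y * P * y⁻¹)⁻¹ * ((y * Q * y⁻¹)⁻¹)⁻¹ * ((y * P * y⁻¹)⁻¹)⁻¹ := by group
      _ = (y * Q * y⁻¹)⁻¹ * P⁻¹ * ((y * Q * y⁻¹)⁻¹)⁻¹ * (P⁻¹)⁻¹ := by rw [hyP]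
      _ = (Q * W)⁻¹ * P⁻¹ * ((Q * W)⁻¹)⁻¹ * (P⁻¹)⁻¹ :=
        comm_lift Z.ρ Z.cen (by rw [map_inv, map_inv, e2]) rfl
      _ = W⁻¹ * (Q⁻¹ * P⁻¹ * Q) * (W * P) := by group
      _ = W⁻¹ * (Q⁻¹ * P⁻¹ * Q) * (P * W) := by rw [cWP]
      _ = W⁻¹ * ((Q⁻¹ * P⁻¹ * Q * P) * W) := by group
      _ = W⁻¹ * (Z.Z r' u * W) := by rw [← e1]
      _ = Z.Z r' u := by rw [← cWR, inv_mul_cancel_left]
  rw [← hy]
  calc y * Z.Z r' u = (y * Z.Z r' u * y⁻¹) * y := by group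
    _ = Z.Z r' u * y := by rw [key]

end partZ

end Cfsg.Agent.Lib.Helper45.StW
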